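import Cfsg.Agent.KGV.A.Defs
import Cfsg.Agent.BLK.KG.Am

set_option autoImplicit false
set_option linter.unusedSectionVars false

namespace CL.KA
open Polynomial Matrix CL.VCh CL.Blk Cfsg
open scoped Classical

variable {p N : ℕ} [Fact p.Prime] {K : Type} [Field K] [Fintype K] [Algebra (ZMod p) K]

theorem am_zero {F : Type} [Field F] [Fintype F] (φ : F[X] → ℂ)
    (hm : ∀ P Q : F[X], P.Monic → Q.Monic → φ (P * Q) = φ P * φ Q) (M : ℕ)
    (hS : ∀ k, 2 ≤ k → k ≤ M → ∑ c : Fin k → F, φ (mon c) = 0)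
    {V : Type} [AddCommGroup V] [Module F V] [Module.Finite F V] [Fintype (Module.End F V)]
    (hV : Module.finrank F V ≤ M) (n : ℕ) :
    ∀ (j : ℕ) (v : Fin (j + 1) → V), Module.finrank F V ≤ j + n → 1 ≤ j → LinearIndependent F v →
      (∑ y : Module.End F V with (∀ i : Fin j, y (v i.castSucc) = v i.succ), φ y.charpoly) = 0 := by
  induction n with
  | zero =>
    intro j v h _ hv
    have := hv.fintype_card_le_finrank
    simp at this
    omega
  | succ n ih =>
    intro j v h h1 hv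
    have hj := hv.fintype_card_le_finrank
    rw [Fintype.card_fin] at hj
    rw [KG.Am.step φ fun w hw =>
      ih (j + 1) _ (by omega) (by omega) (linearIndependent_finSnoc.2 ⟨hv, hw⟩)]
    obtain ⟨W, _, -, hW⟩ := KG.Am.split φ hm hv
    rw [hW, ← Equiv.sum_comp (Equiv.neg (Fin (j + 1) → F))]
    simp only [Equiv.neg_apply, Pi.neg_apply, neg_neg]
    have := hS (j + 1) (by omega) (by omega)
    simp only [mon] at this
    rw [this, zero_mul]

theorem am_aux {F : Type} [Field F] [Fintype F] (φ : F[X] → ℂ) (h1 : φ 1 = 1)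
    (hm : ∀ P Q : F[X], P.Monic → Q.Monic → φ (P * Q) = φ P * φ Q) (M : ℕ)
    (hS : ∀ k, 2 ≤ k → k ≤ M → ∑ c : Fin k → F, φ (mon c) = 0) (m : ℕ) :
    m ≤ M → ∀ (V : Type) [AddCommGroup V] [Module F V] [Module.Finite F V]
      [Fintype (Module.End F V)], Module.finrank F V = m → ∑ y : Module.End F V, φ y.charpoly =
        (Fintype.card F : ℂ) ^ (m * (m - 1) / 2) * (∑ a : F, φ (X - C a)) ^ m := by
  induction m with
  | zero =>
    intro _ V _ _ _ _ h
    have : Subsingleton V := Module.finrank_zero_iff.1 h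
    have : Unique (Module.End F V) := ⟨⟨0⟩, fun _ => LinearMap.ext fun _ => Subsingleton.elim _ _⟩
    rw [Fintype.sum_unique, (LinearMap.charpoly_monic _).natDegree_eq_zero.1
      (by rw [LinearMap.charpoly_natDegree, h]), h1]
    simp
  | succ m ih =>
    intro hM V _ _ _ _ h
    have : Nontrivial V := Module.nontrivial_of_finrank_eq_succ h
    obtain ⟨x, hx⟩ := exists_ne (0 : V)
    have hv : LinearIndependent F (fun _ : Fin (0 + 1) => x) :=
      (linearIndependent_unique_iff (v := fun _ : Fin 1 => x)).2 hx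
    have hs := KG.Am.step φ (v := fun _ : Fin (0 + 1) => x) fun w hw =>
      am_zero φ hm M hS (by omega) (Module.finrank F V) 1 _ (by omega) le_rfl
        (linearIndependent_finSnoc.2 ⟨hv, hw⟩)
    obtain ⟨W, _, hr, hW⟩ := KG.Am.split φ hm hv
    have hr' : Module.finrank F W = m := by omega
    rw [hW, ih (by omega) W hr', hr', Finset.filter_true_of_mem (fun _ _ i => i.elim0)] at hs
    have h2 : ∑ c : Fin (0 + 1) → F, φ (X ^ (0 + 1) + ∑ i, C (-c i) * X ^ (i : ℕ)) =
        ∑ a : F, φ (X - C a) := by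
      refine Fintype.sum_equiv (Equiv.funUnique (Fin 1) F) _ _ fun c => ?_
      simp [sub_eq_add_neg]
    rw [hs, h2, Nat.triangle_succ]
    ring

/-- matrix form, with the vanishing hypothesis only for `k ≤ m`. -/
theorem am_sum {F : Type} [Field F] [Fintype F] (φ : F[X] → ℂ) (h1 : φ 1 = 1) (hm : ∀ P Q : F[X], P.Monic → Q.Monic → φ (P * Q) = φ P * φ Q)
    (m : ℕ) (hS : ∀ k, 2 ≤ k → k ≤ m → ∑ c : Fin k → F, φ (mon c) = 0) :
    ∑ z : Matrix (Fin m) (Fin m) F, φ z.charpoly = (Fintype.card F : ℂ) ^ (m * (m - 1) / 2) * (∑ a : F, φ (X - C a)) ^ m := by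
  have : Finite (Module.End F (Fin m → F)) := Module.finite_of_finite F
  letI := Fintype.ofFinite (Module.End F (Fin m → F))
  rw [← am_aux φ h1 hm m hS m le_rfl (Fin m → F) (by simp)]
  refine Fintype.sum_equiv (Matrix.toLin' (R := F) (m := Fin m) (n := Fin m)).toEquiv _ _ fun z => ?_
  rw [LinearEquiv.coe_toEquiv, Matrix.charpoly_toLin']

end CL.KA
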