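import Cfsg.Agent.KGV.A.AsmD
import Cfsg.Agent.KGV.Glue
import Cfsg.Agent.BLK.KG.Mono

/-! The good class function as a quotient of two weighted monomial traces. -/

set_option autoImplicit false
open Cfsg

namespace CL.KGA

open Subgroup CL.VCh CL.RVec CL.Blk

universe u

namespace Asm

variable {p : ℕ} [hp : Fact p.Prime] {H V : Type*} [Group H] [Finite H] [AddCommGroup V]
  [Module (ZMod p) V] [Finite V]

theorem psi_pow (ψ : AddChar (ZMod p) ℂ) (t : ZMod p) : ψ t ^ p = 1 := by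
  rw [← AddChar.map_nsmul_eq_pow, nsmul_eq_mul, ZMod.natCast_self, zero_mul, AddChar.map_zero_eq_one]

theorem sum_mem_VC (u : H →* (Module.End (ZMod p) V)ˣ) (ψ : AddChar (ZMod p) ℂ)
    (θ : (Module.End (ZMod p) V)ˣ → (Module.End (ZMod p) V)ˣ → ℂ)
    (h1 : ∀ y a b, a * y = y * a → b * y = y * b → θ y (a * b) = θ y a * θ y b) (h2 : ∀ y, θ y 1 = 1)
    (h3 : ∀ y g a, a * y = y * a → θ (g * y * g⁻¹) (g * a * g⁻¹) = θ y a) :
    (fun h : H => ∑ᶠ x : centralizer ({u h} : Set (Module.End (ZMod p) V)ˣ),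
      ψ (LinearMap.trace (ZMod p) V x.1.1) * θ x.1 (u h)) ∈ VC H := by
  classical
  have : Finite (Module.End (ZMod p) V) := Finite.of_injective _ DFunLike.coe_injective
  have := Fintype.ofFinite (Module.End (ZMod p) V)ˣ
  have : Module.Finite (ZMod p) V := Module.Finite.of_finite
  let _ : MulAction H (Module.End (ZMod p) V)ˣ :=
    { smul := fun h y => u h * y * (u h)⁻¹
      one_smul := fun y => by change u 1 * y * (u 1)⁻¹ = y; simp
      mul_smul := fun a b y => by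
        change u (a * b) * y * (u (a * b))⁻¹ = u a * (u b * y * (u b)⁻¹) * (u a)⁻¹
        simp [mul_assoc] }
  have hs : ∀ (h : H) (y : (Module.End (ZMod p) V)ˣ), h • y = u h * y * (u h)⁻¹ := fun _ _ => rfl
  have hc : ∀ (h : H) (y : (Module.End (ZMod p) V)ˣ), h • y = y ↔ u h * y = y * u h := fun h y => by
    rw [hs, mul_inv_eq_iff_eq_mul]
  have h := KG.mono (H := H) (fun y : (Module.End (ZMod p) V)ˣ => ψ (LinearMap.trace (ZMod p) V y.1))
    (fun y => IsIntegral.of_pow hp.out.pos (psi_pow ψ _ ▸ isIntegral_one))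
    (fun g y => by
      rw [hs, Units.val_mul, LinearMap.trace_mul_comm, Units.val_mul, ← mul_assoc, Units.inv_mul, one_mul])
    (fun y h => θ y (u h))
    (fun y a b ha hb => by rw [map_mul]; exact h1 y _ _ ((hc _ _).1 ha) ((hc _ _).1 hb))
    (fun y => by rw [map_one, h2])
    (fun y g a ha => by rw [hs, map_mul, map_mul, map_inv]; exact h3 y _ _ ((hc _ _).1 ha))
  convert h using 2 with g
  rw [finsum_eq_sum_of_fintype, ← Finset.sum_subtype (Finset.univ.filter fun y => g • y = y) (fun y => by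
    rw [Finset.mem_filter, hc, mem_centralizer_singleton_iff, eq_comm]; simp)
    (fun y : (Module.End (ZMod p) V)ˣ => ψ (LinearMap.trace (ZMod p) V y.1) * θ y (u g)), Finset.sum_filter]
  exact Finset.sum_congr rfl fun y _ => by congr

end Asm

theorem ex_of {p : ℕ} [hp : Fact p.Prime] (hK : KondoSt.{u} p) (hT : ThetaSt.{u} p) : KGV.Ex.{u} p := by
  classical
  intro H U _ _ _ _ _ M hM hH ρ
  have : Finite (Module.End (ZMod p) U) := Finite.of_injective _ DFunLike.coe_injective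
  have : NeZero p := ⟨hp.out.ne_zero⟩
  obtain ⟨N, hN, θ, t1, t2, t3, t4⟩ := hT U
  let u : H →* (Module.End (ZMod p) U)ˣ := MonoidHom.toHomUnits ρ
  have hu : ∀ h, (u h).1 = ρ h := fun _ => rfl
  have hm : ∀ h, u h ^ Nat.card H = 1 := fun h => by rw [← map_pow, pow_card_eq_one', map_one]
  choose Θ r s1 s2 s3 s4 using fun h => t4 (u h) _ hH (hm h)
  let ψ : AddChar (ZMod p) ℂ := ZMod.stdAddChar
  have hψ1 : ψ 1 ≠ 1 := fun e => one_ne_zero ((ZMod.isPrimitive_stdAddChar p).zmod_char_eq_one_iff p 1 |>.1 e)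
  have hψ : ψ ≠ 1 := fun e => hψ1 (by rw [e]; rfl)
  choose j A k1 k2 k3 k4 k5 using fun h => hK U (u h) _ hH (hm h) (Θ h) N hN (s1 h) (s2 h) ψ hψ
  have hp0 : (p : ℂ) ≠ 0 := Nat.cast_ne_zero.2 hp.out.ne_zero
  have hS0 : ∀ h, (∑ᶠ x : centralizer ({u h} : Set (Module.End (ZMod p) U)ˣ),
      ψ (LinearMap.trace (ZMod p) U x.1.1)) ≠ 0 := fun h => by
    rcases k1 h with e | e <;> rw [e] <;> simp [hp0]
  have hS := Asm.sum_mem_VC u ψ (fun _ _ => 1) (by simp) (by simp) (by simp)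
  simp only [mul_one] at hS
  have hF := Asm.sum_mem_VC u ψ θ t1 t2 t3
  have hF' : ∀ h, (∑ᶠ x : centralizer ({u h} : Set (Module.End (ZMod p) U)ˣ),
      ψ (LinearMap.trace (ZMod p) U x.1.1) * θ x.1 (u h)) =
      ∑ᶠ x : centralizer ({u h} : Set (Module.End (ZMod p) U)ˣ),
        ψ (LinearMap.trace (ZMod p) U x.1.1) * Θ h x := fun h => by
    rw [← finsum_comp_equiv (r h) (f := fun x => ψ (LinearMap.trace (ZMod p) U x.1.1) * Θ h x)]
    exact finsum_congr fun x => by rw [(s4 h x).1, (s4 h x).2]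
  obtain ⟨J, hJ⟩ := (Set.finite_range j).bddAbove
  have hN0 : N ≠ 0 := fun e => hN (e ▸ dvd_zero p)
  refine ⟨p * N, mul_ne_zero hp.out.ne_zero hN0, A, ?_, fun h => ?_, fun σ h => ?_, ?_, fun h hh => ?_⟩
  · refine mem_of_mul_eq hS hF k3 (fun h => by rw [hF', k2]) (q := p ^ J)
      ((hp.out.coprime_iff_not_dvd.2 hH).pow_left _) fun h => ?_
    have hj : j h ≤ J := hJ ⟨h, rfl⟩
    have hi : IsIntegral ℤ ((p : ℂ) ^ (J - j h)) := IsIntegral.pow (by exact_mod_cast isIntegral_algebraMap (R := ℤ) (A := ℂ) (x := (p : ℤ))) _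
    rcases k1 h with e | e
    · exact ⟨_, hi, by rw [e, ← pow_add, Nat.sub_add_cancel hj, Nat.cast_pow]⟩
    · exact ⟨_, hi.neg, by rw [e, neg_mul_neg, ← pow_add, Nat.sub_add_cancel hj, Nat.cast_pow]⟩
  · have := Fintype.ofFinite (centralizer ({u h} : Set (Module.End (ZMod p) U)ˣ))
    have e := (div_eq_iff (hS0 h)).2 ((k2 h).trans (mul_comm _ _))
    rw [← e, finsum_eq_sum_of_fintype, finsum_eq_sum_of_fintype]
    have a1 : ∀ t, ψ t ∈ Fix (p * N) := fun t => root_mem_fix (by rw [pow_mul, Asm.psi_pow, one_pow])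
    exact div_mem (sum_mem fun x _ => mul_mem (a1 _)
      (root_mem_fix (by rw [mul_comm, pow_mul, s1, one_pow]))) (sum_mem fun x _ => a1 _)
  · have := Fintype.ofFinite (centralizer ({u h} : Set (Module.End (ZMod p) U)ˣ))
    obtain ⟨j', A', l1, l2, -, l4, -⟩ := hK U (u h) _ hH (hm h) (σ.toMonoidHom.comp (Θ h)) N hN
      (fun x => by simp [← map_pow, s1]) (fun x hx => by simp [s2 h x hx])
      (σ.toMonoidHom.compAddChar ψ) (fun e => hψ1 (σ.injective
        ((DFunLike.congr_fun e 1).trans (map_one σ).symm)))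
    have e2 := congrArg σ (k2 h)
    have e0 := (map_ne_zero σ).2 (hS0 h)
    simp only [finsum_eq_sum_of_fintype, map_sum, map_mul] at e2 e0 l2
    have e3 : σ (A h) = A' := mul_left_cancel₀ e0 (e2.symm.trans l2)
    rw [e3]
    exact l4
  · have e := k2 1
    rw [finsum_congr (g := fun x => ψ (LinearMap.trace (ZMod p) U x.1.1)) fun x => by
      rw [s2 1 x fun v => by simp, mul_one]] at e
    exact (mul_right_eq_self₀.1 e.symm).resolve_right (hS0 1)
  · obtain ⟨B, hB, e⟩ := k5 h (s3 h fun e => hh (eq_top_iff.2 fun v _ => by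
      rw [mem_Fx, ← hu, e]; rfl))
    have a1 : ψ 1 ∈ Blk.V M := mem_V_of_pow_eq_one hp.out.ne_zero (Asm.psi_pow ψ 1)
    rw [e, red_mul (sub_mem a1 (one_mem _)) (mem_V_of_isIntegral hB), red_sub a1 (one_mem _),
      red_eq_one_of_pow_p_pow hM (k := 1) (by rw [pow_one, Asm.psi_pow]), red_one, sub_self, zero_mul]

end CL.KGA
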