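import Cfsg.Agent.KGV.A.Defs
import Cfsg.Agent.KGV.Big

set_option autoImplicit false
set_option linter.unusedSectionVars false

namespace CL.KA
open Polynomial Matrix CL.VCh CL.Blk Cfsg
open scoped Classical

variable {p N : ℕ} [Fact p.Prime] {K : Type} [Field K] [Fintype K] [Algebra (ZMod p) K]

theorem bas_iter (i : ℕ) (a : K) : (fun x : K => x ^ p)^[i] a = a ^ p ^ i := by
  induction i with
  | zero => simp
  | succ i ih => rw [Function.iterate_succ_apply', ih, ← pow_mul, pow_succ]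

theorem dg_dvd_iff (a : K) (i : ℕ) : dg p a ∣ i ↔ a ^ p ^ i = a := by
  rw [dg, ← Function.isPeriodicPt_iff_minimalPeriod_dvd, Function.IsPeriodicPt, Function.IsFixedPt,
    bas_iter]

theorem Dat.bas_pow_e (D : Dat p N K) (a : K) : a ^ p ^ D.e = a := by
  rw [← D.card]; exact FiniteField.pow_card a

theorem Dat.dg_dvd (D : Dat p N K) (a : K) : dg p a ∣ D.e := (dg_dvd_iff a _).2 (D.bas_pow_e a)
/-- `a ^ p ^ e = a` (`FiniteField.pow_card`), so `a` is a periodic point. -/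
theorem Dat.dg_pos (D : Dat p N K) (a : K) : 0 < dg p a := Nat.pos_of_dvd_of_pos (D.dg_dvd a) D.e_pos
theorem dg_pow (D : Dat p N K) (a : K) (i : ℕ) : dg p (a ^ p ^ i) = dg p a := by
  have := (Algebra.charP_iff (ZMod p) K p).1 inferInstance
  have key : ∀ j, dg p (a ^ p ^ i) ∣ j ↔ dg p a ∣ j := fun j => by
    rw [dg_dvd_iff, dg_dvd_iff, ← pow_mul, mul_comm, pow_mul]
    exact ⟨fun h => (iterateFrobenius K p i).injective (by simpa [iterateFrobenius_def] using h),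
      fun h => by rw [h]⟩
  exact Nat.dvd_antisymm ((key _).2 dvd_rfl) ((key _).1 dvd_rfl)
theorem dg_one : dg p (1 : K) = 1 := Nat.dvd_one.1 ((dg_dvd_iff 1 1).2 (one_pow _))
theorem Dat.one_mem (D : Dat p N K) : (1 : K) ∈ D.R := by
  obtain ⟨i, hi⟩ := D.R_ex 1 one_ne_zero
  simpa using hi

theorem bas_pos {d : ℕ} (h0 : 0 < d) : 0 < p ^ d - 1 :=
  Nat.sub_pos_of_lt (Nat.one_lt_pow h0.ne' (Fact.out : p.Prime).one_lt)

theorem Dat.cc_mul (D : Dat p N K) {d : ℕ} (hd : d ∣ D.e) : D.cc d * (p ^ d - 1) = p ^ D.e - 1 :=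
  Nat.div_mul_cancel (Nat.pow_sub_one_dvd_pow_sub_one p hd)

theorem Dat.bas_cc_pos (D : Dat p N K) {d : ℕ} (hd : d ∣ D.e) : 0 < D.cc d := by
  have h := bas_pos (p := p) D.e_pos
  rw [← D.cc_mul hd] at h
  exact Nat.pos_of_mul_pos_right h |> fun h => h

theorem Dat.bas_fin (D : Dat p N K) : IsOfFinOrder D.γ := by
  rw [← orderOf_pos_iff, D.γ_ord]; exact bas_pos D.e_pos

theorem Dat.bas_ne (D : Dat p N K) : D.γ ≠ 0 := fun h => by
  have h1 := pow_orderOf_eq_one D.γ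
  rw [D.γ_ord, h, zero_pow (bas_pos D.e_pos).ne'] at h1
  exact zero_ne_one h1

theorem Dat.bas_mod (D : Dat p N K) {m n : ℕ} : D.γ ^ m = D.γ ^ n ↔ m ≡ n [MOD p ^ D.e - 1] := by
  rw [D.bas_fin.pow_eq_pow_iff_modEq, D.γ_ord]

theorem Dat.bas_key (D : Dat p N K) {m n : ℕ} : D.γ ^ m = D.γ ^ n ↔ D.ζ ^ m = D.ζ ^ n := by
  have h : IsOfFinOrder D.ζ := by
    rw [← orderOf_pos_iff, ← D.ζ_prim.eq_orderOf]; exact bas_pos D.e_pos
  rw [D.bas_mod, h.pow_eq_pow_iff_modEq, ← D.ζ_prim.eq_orderOf]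

theorem bas_pow_sub {d : ℕ} {x : K} (hx : x ^ p ^ d = x) (h : x ≠ 0) : x ^ (p ^ d - 1) = 1 := by
  have h1 : p ^ d = (p ^ d - 1) + 1 :=
    (Nat.sub_add_cancel (Nat.one_le_pow _ _ (Fact.out : p.Prime).pos)).symm
  rw [h1, pow_succ] at hx
  exact mul_right_cancel₀ h (hx.trans (one_mul x).symm)

theorem Dat.cc_dvd (D : Dat p N K) {d : ℕ} (h0 : 0 < d) (hd : d ∣ D.e) {x : K} (hx : x ∈ Lf p K d) (h : x ≠ 0) : D.cc d ∣ D.lg x := by
  have h1 := bas_pow_sub (mem_Lf.1 hx) h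
  rw [← D.γ_lg x h, ← pow_mul, ← orderOf_dvd_iff_pow_eq_one, D.γ_ord, ← D.cc_mul hd] at h1
  exact Nat.dvd_of_mul_dvd_mul_right (bas_pos h0) h1

theorem Dat.bas_mem (D : Dat p N K) {d : ℕ} (hd : d ∣ D.e) (k : ℕ) : D.γ ^ (D.cc d * k) ∈ Lf p K d := by
  have h1 : p ^ d = (p ^ d - 1) + 1 :=
    (Nat.sub_add_cancel (Nat.one_le_pow _ _ (Fact.out : p.Prime).pos)).symm
  rw [mem_Lf, h1, pow_succ, ← pow_mul, mul_right_comm, D.cc_mul hd, pow_mul, ← D.γ_ord,
    pow_orderOf_eq_one, one_pow, one_mul]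

/-- nonzero elements of `Lf d` are the powers of `γ ^ cc d`, of order `p ^ d - 1`. -/
theorem Dat.card_Lf (D : Dat p N K) {d : ℕ} (h0 : 0 < d) (hd : d ∣ D.e) : Fintype.card (Lf p K d) = p ^ d := by
  have hc := D.bas_cc_pos hd
  let f : Option (Fin (p ^ d - 1)) → Lf p K d := fun o =>
    o.elim 0 fun k => ⟨D.γ ^ (D.cc d * k), D.bas_mem hd k⟩
  have hf : Function.Bijective f := by
    constructor
    · rintro (_ | a) (_ | b) h
      · rfl
      · exact absurd (congrArg Subtype.val h).symm (pow_ne_zero _ D.bas_ne)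
      · exact absurd (congrArg Subtype.val h) (pow_ne_zero _ D.bas_ne)
      · have h1 : D.γ ^ (D.cc d * a) = D.γ ^ (D.cc d * b) := congrArg Subtype.val h
        rw [D.bas_mod, ← D.cc_mul hd] at h1
        have h2 := Nat.ModEq.mul_left_cancel' hc.ne' h1
        exact congrArg some (Fin.ext (Nat.ModEq.eq_of_lt_of_lt h2 a.2 b.2))
    · rintro ⟨x, hx⟩
      by_cases h : x = 0
      · exact ⟨none, Subtype.ext h.symm⟩
      obtain ⟨u, hu⟩ := D.cc_dvd h0 hd hx h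
      refine ⟨some ⟨u % (p ^ d - 1), Nat.mod_lt _ (bas_pos h0)⟩, Subtype.ext ?_⟩
      change D.γ ^ (D.cc d * (u % (p ^ d - 1))) = x
      rw [← D.γ_lg x h, hu, D.bas_mod, ← D.cc_mul hd]
      exact (Nat.mod_modEq _ _).mul_left' _
  rw [← Fintype.card_of_bijective hf, Fintype.card_option, Fintype.card_fin]
  exact Nat.sub_add_cancel (Nat.one_le_pow _ _ (Fact.out : p.Prime).pos)

theorem Dat.bas_io (D : Dat p N K) (n : ℕ) : D.io (D.γ ^ n) = D.ζ ^ n := by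
  have h := pow_ne_zero n D.bas_ne
  rw [Dat.io, if_neg h]
  exact D.bas_key.1 (D.γ_lg _ h)

theorem Dat.io_mul (D : Dat p N K) (a b : K) : D.io (a * b) = D.io a * D.io b := by
  by_cases ha : a = 0
  · simp [Dat.io, ha]
  by_cases hb : b = 0
  · simp [Dat.io, hb]
  rw [← D.γ_lg a ha, ← D.γ_lg b hb, ← pow_add, D.bas_io, D.bas_io, D.bas_io, pow_add]
theorem Dat.io_one (D : Dat p N K) : D.io 1 = 1 := by simpa using D.bas_io 0
theorem Dat.io_pow (D : Dat p N K) (a : K) (n : ℕ) : D.io (a ^ n) = D.io a ^ n := by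
  induction n with
  | zero => rw [pow_zero, pow_zero, D.io_one]
  | succ n ih => rw [pow_succ, pow_succ, D.io_mul, ih]
theorem Dat.eq_one_of_io (D : Dat p N K) {a : K} (h : D.io a = 1) : a = 1 := by
  by_cases ha : a = 0
  · simp [Dat.io, ha] at h
  rw [Dat.io, if_neg ha, ← pow_zero D.ζ, ← D.bas_key, D.γ_lg a ha] at h
  simpa using h

theorem Dat.bas_chi (D : Dat p N K) {l : K} (hl : l ≠ 0) (k : ℕ) :
    D.chi l (D.γ ^ (D.cc (dg p l) * k)) = D.io l ^ k := by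
  have hd := D.dg_dvd l
  have hc := D.bas_cc_pos hd
  have hne := pow_ne_zero (D.cc (dg p l) * k) D.bas_ne
  obtain ⟨u, hu⟩ := D.cc_dvd (D.dg_pos l) hd (D.bas_mem hd k) hne
  have h1 := D.γ_lg _ hne
  rw [hu, D.bas_mod, ← D.cc_mul hd] at h1
  have h2 := Nat.ModEq.mul_left_cancel' hc.ne' h1
  have h3 : D.io l ^ (p ^ dg p l - 1) = 1 := by
    rw [← D.io_pow, bas_pow_sub ((dg_dvd_iff l _).1 dvd_rfl) hl, D.io_one]
  rw [Dat.chi, hu, Nat.mul_div_cancel_left _ hc, pow_eq_pow_mod u h3, pow_eq_pow_mod k h3, h2]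

theorem Dat.chi_mul (D : Dat p N K) {l x y : K} (hl : l ≠ 0) (hx : x ∈ Lf p K (dg p l)) (hy : y ∈ Lf p K (dg p l)) (hx0 : x ≠ 0)
    (hy0 : y ≠ 0) : D.chi l (x * y) = D.chi l x * D.chi l y := by
  obtain ⟨u, hu⟩ := D.cc_dvd (D.dg_pos l) (D.dg_dvd l) hx hx0
  obtain ⟨v, hv⟩ := D.cc_dvd (D.dg_pos l) (D.dg_dvd l) hy hy0
  rw [← D.γ_lg x hx0, ← D.γ_lg y hy0, hu, hv, ← pow_add, ← mul_add, D.bas_chi hl, D.bas_chi hl,
    D.bas_chi hl, pow_add]
/-- `x = γ ^ cc d` has `chi l x = io l ≠ 1`. -/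
theorem Dat.chi_ne (D : Dat p N K) {l : K} (hl : l ≠ 0) (h1 : l ≠ 1) : ∃ x ∈ Lf p K (dg p l), x ≠ 0 ∧ D.chi l x ≠ 1 :=
  ⟨_, D.bas_mem (D.dg_dvd l) 1, pow_ne_zero _ D.bas_ne, by
    rw [D.bas_chi hl, pow_one]; exact fun h => h1 (D.eq_one_of_io h)⟩
theorem Dat.chi_pow (D : Dat p N K) {l : K} (hl : l ≠ 0) (x : K) : D.chi l x ^ (p ^ D.e - 1) = 1 := by
  rw [Dat.chi, ← pow_mul, mul_comm, pow_mul, ← D.io_pow, bas_pow_sub (D.bas_pow_e l) hl, D.io_one,
    one_pow]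
theorem trc_mem {d : ℕ} {x : K} (hx : x ∈ Lf p K d) : ∃ t : ZMod p, algebraMap (ZMod p) K t = trc p d x := by
  have := (Algebra.charP_iff (ZMod p) K p).1 inferInstance
  refine CL.KGV.Big.mem_range p ?_
  have h1 : trc p d x ^ p = ∑ i ∈ Finset.range d, x ^ p ^ (i + 1) := by
    rw [trc, sum_pow_char]
    exact Finset.sum_congr rfl fun i _ => by rw [← pow_mul, pow_succ]
  have h2 := Finset.sum_range_succ' (fun i => x ^ p ^ i) d
  rw [Finset.sum_range_succ, mem_Lf.1 hx, pow_zero, pow_one] at h2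
  rw [h1, trc]
  exact (add_right_cancel h2).symm
theorem trc_add (d : ℕ) (x y : K) : trc p d (x + y) = trc p d x + trc p d y := by
  have := (Algebra.charP_iff (ZMod p) K p).1 inferInstance
  simp only [trc, add_pow_char_pow, Finset.sum_add_distrib]
theorem psi_trc_add {d : ℕ} {x y : K} (hx : x ∈ Lf p K d) (hy : y ∈ Lf p K d) :
    psi p (trc p d (x + y)) = psi p (trc p d x) * psi p (trc p d y) := by
  obtain ⟨t, ht⟩ := trc_mem hx
  obtain ⟨s, hs⟩ := trc_mem hy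
  rw [trc_add, ← ht, ← hs, ← map_add, psi_alg, psi_alg, psi_alg, AddChar.map_add_eq_mul]
theorem psi_trc_zero (d : ℕ) : psi p (trc p d (0 : K)) = 1 := by
  have h : trc p d (0 : K) = algebraMap (ZMod p) K 0 := by
    rw [map_zero, trc]
    exact Finset.sum_eq_zero fun i _ => zero_pow (pow_ne_zero _ (Fact.out : p.Prime).ne_zero)
  rw [h, psi_alg, AddChar.map_zero_eq_one]
theorem psi_trc_pow {d : ℕ} {x : K} (hx : x ∈ Lf p K d) : psi p (trc p d x) ^ p = 1 := by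
  obtain ⟨t, ht⟩ := trc_mem hx
  rw [← ht, psi_alg, ← AddChar.map_nsmul_eq_pow, nsmul_eq_mul, ZMod.natCast_self, zero_mul,
    AddChar.map_zero_eq_one]
/-- `trc` is a polynomial of degree `p ^ (d-1) < card (Lf d)`; `ZMod.stdAddChar` is injective. -/
theorem Dat.psi_ne (D : Dat p N K) {d : ℕ} (h0 : 0 < d) (hd : d ∣ D.e) : ∃ x ∈ Lf p K d, psi p (trc p d x) ≠ 1 := by
  have hp : p.Prime := Fact.out
  by_contra hcon
  push Not at hcon
  have hz : ∀ x ∈ Lf p K d, trc p d x = 0 := fun x hx => by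
    obtain ⟨t, ht⟩ := trc_mem hx
    have h1 := hcon x hx
    rw [← ht, psi_alg, ← AddChar.map_zero_eq_one (ZMod.stdAddChar (N := p))] at h1
    rw [← ht, ZMod.injective_stdAddChar h1, map_zero]
  let P : K[X] := ∑ i ∈ Finset.range d, X ^ p ^ i
  have hdeg : P.natDegree < p ^ d := by
    refine lt_of_le_of_lt (natDegree_sum_le_of_forall_le _ _ (n := p ^ d - 1) fun i hi => ?_)
      (Nat.sub_lt (pow_pos hp.pos _) one_pos)
    rw [natDegree_X_pow]
    exact Nat.le_sub_one_of_lt (Nat.pow_lt_pow_right hp.one_lt (Finset.mem_range.1 hi))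
  have hP : P = 0 := by
    refine eq_zero_of_natDegree_lt_card_of_eval_eq_zero P (f := fun x : Lf p K d => (x : K))
      Subtype.val_injective (fun x => ?_) (by rw [D.card_Lf h0 hd]; exact hdeg)
    have := hz x x.2
    simpa [P, trc, eval_finset_sum] using this
  have h1 : P.coeff 1 = 1 := by
    rw [finset_sum_coeff, Finset.sum_eq_single 0]
    · simp
    · intro i _ hi
      rw [coeff_X_pow, if_neg (Nat.one_lt_pow hi hp.one_lt).ne]
    · intro h; exact absurd (Finset.mem_range.2 h0) h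
  rw [hP, coeff_zero] at h1
  exact zero_ne_one h1

end CL.KA
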