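import Cfsg.Agent.KGV.A.Bas
import Cfsg.Agent.KGV.Idem

set_option autoImplicit false
set_option linter.unusedSectionVars false

namespace CL.KA
open Polynomial Matrix CL.VCh CL.Blk Cfsg
open scoped Classical

variable {p N : ℕ} [Fact p.Prime] {K : Type} [Field K] [Fintype K] [Algebra (ZMod p) K]

theorem Dat.Str.sum_eq (D : Dat p N K) {g : Matrix (Fin N) (Fin N) (ZMod p)} (T : D.Str g) : ∑ a : D.R, T.m a * dg p (a : K) = N := by
  have h := Fintype.card_congr T.ε
  simpa [Fintype.card_sigma] using h.symm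

/-- rank of `g - 1` is invariant under `map` and conjugation; the diagonal entry `a ^ p ^ i` is `1` iff `a = 1`; `dg 1 = 1`. -/
theorem Dat.Str.card_fix (D : Dat p N K) {g : Matrix (Fin N) (Fin N) (ZMod p)} (T : D.Str g) :
    Nat.card {v : Fin N → ZMod p // g *ᵥ v = v} = p ^ T.m ⟨1, D.one_mem⟩ := by
  have hch := (Algebra.charP_iff (ZMod p) K p).1 inferInstance
  have hp : p.Prime := Fact.out
  have d1 : dg p (1 : K) = 1 := by
    rw [dg, Function.minimalPeriod_eq_one_iff_isFixedPt]; exact one_pow _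
  have hu : IsUnit T.P.det := (Matrix.isUnit_iff_isUnit_det _).1 (IsUnit.of_mul_eq_one _ T.PP)
  have hu' : IsUnit T.P'.det :=
    (Matrix.isUnit_iff_isUnit_det _).1 (IsUnit.of_mul_eq_one_right _ T.PP)
  have h1 : T.P * (g - 1).map (algebraMap (ZMod p) K) * T.P' =
      diagonal fun j => ((T.ε j).1 : K) ^ p ^ ((T.ε j).2.2 : ℕ) - 1 := by
    rw [Matrix.map_sub _ (map_sub _), Matrix.map_one _ (map_zero _) (map_one _), Matrix.mul_sub,
      Matrix.sub_mul, T.hg, Matrix.mul_one, T.PP, ← diagonal_one, diagonal_sub]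
  have h2 : (g - 1).rank =
      Fintype.card {j // ((T.ε j).1 : K) ^ p ^ ((T.ε j).2.2 : ℕ) - 1 ≠ 0} := by
    rw [← CL.KGV.IdM.rank_map (algebraMap (ZMod p) K) (g - 1), ← rank_diagonal, ← h1,
      rank_mul_eq_left_of_isUnit_det _ _ hu', rank_mul_eq_right_of_isUnit_det _ _ hu]
  have h3 : Fintype.card {j // ((T.ε j).1 : K) ^ p ^ ((T.ε j).2.2 : ℕ) - 1 = 0} =
      T.m ⟨1, D.one_mem⟩ := by
    have e1 : ∀ j, ((T.ε j).1 : K) ^ p ^ ((T.ε j).2.2 : ℕ) - 1 = 0 ↔ (T.ε j).1 = ⟨1, D.one_mem⟩ := by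
      intro j
      have e2 : ∀ (x : K) (i : ℕ), x ^ p ^ i - 1 = 0 ↔ x = 1 := fun x i => by
        have : x ^ p ^ i - 1 = (x - 1) ^ p ^ i := by rw [sub_pow_char_pow, one_pow]
        rw [this, pow_eq_zero_iff (pow_ne_zero _ hp.ne_zero), sub_eq_zero]
      rw [e2, Subtype.ext_iff]
    rw [Fintype.card_congr ((T.ε.subtypeEquiv (q := fun s => s.1 = ⟨1, D.one_mem⟩) e1).trans
      (Equiv.sigmaSubtype _))]
    simp [d1]
  have h4 := Fintype.card_subtype_compl
    (fun j => ((T.ε j).1 : K) ^ p ^ ((T.ε j).2.2 : ℕ) - 1 = 0)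
  have h5 := Fintype.card_subtype_le (fun j => ((T.ε j).1 : K) ^ p ^ ((T.ε j).2.2 : ℕ) - 1 = 0)
  have h6 := LinearMap.finrank_range_add_finrank_ker (g - 1).mulVecLin
  have h7 : Module.finrank (ZMod p) (LinearMap.ker (g - 1).mulVecLin) = T.m ⟨1, D.one_mem⟩ := by
    rw [Matrix.rank] at h2
    simp only [Fintype.card_fin, Module.finrank_fintype_fun_eq_card, ne_eq] at h2 h4 h5 h6
    omega
  rw [← h7, Nat.card_congr (Equiv.subtypeEquivRight (q := fun v => v ∈ LinearMap.ker (g - 1).mulVecLin)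
    fun v => by simp [sub_mulVec, sub_eq_zero])]
  have := Module.natCard_eq_pow_finrank (K := ZMod p) (V := LinearMap.ker (g - 1).mulVecLin)
  rwa [Nat.card_zmod] at this

end CL.KA
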