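import Mathlib
import Cfsg.Agent.BLK.RVecA

/-! Gauss sums over the general linear group and the class number of `GV`: definitions. -/

set_option autoImplicit false

namespace CL.KA
open Polynomial Matrix
open scoped Classical

/-- A large finite field `K` with `Q = p ^ e` elements, discrete logarithm, Frobenius transversal. -/
structure Dat (p N : ℕ) [Fact p.Prime] (K : Type) [Field K] [Fintype K] [Algebra (ZMod p) K] where
  e : ℕ
  card : Fintype.card K = p ^ e
  e_pos : 0 < e
  le : N ≤ p ^ e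
  γ : K
  lg : K → ℕ
  γ_ord : orderOf γ = p ^ e - 1
  γ_lg : ∀ a, a ≠ 0 → γ ^ lg a = a
  ζ : ℂ
  ζ_prim : IsPrimitiveRoot ζ (p ^ e - 1)
  R : Finset K
  R_ne : ∀ a ∈ R, a ≠ 0
  R_ex : ∀ a, a ≠ 0 → ∃ i : ℕ, a ^ p ^ i ∈ R
  R_uq : ∀ a ∈ R, ∀ i : ℕ, a ^ p ^ i ∈ R → a ^ p ^ i = a
  spl : ∀ (d : ℕ) (h : K[X]), 0 < d → h.Monic → (∀ i, h.coeff i ^ p ^ d = h.coeff i) →
    h.natDegree * d ≤ N → h.roots.card = h.natDegree

variable {p N : ℕ} [Fact p.Prime] {K : Type} [Field K] [Fintype K] [Algebra (ZMod p) K]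

/-- degree of an element over the prime field -/
noncomputable def dg (p : ℕ) (a : K) : ℕ := Function.minimalPeriod (fun x : K => x ^ p) a

/-- the subfield with `p ^ d` elements -/
def Lf (p : ℕ) [Fact p.Prime] (K : Type) [Field K] [Algebra (ZMod p) K] (d : ℕ) : Subfield K where
  carrier := {x | x ^ p ^ d = x}
  mul_mem' {a b} ha hb := by simp only [Set.mem_setOf_eq] at *; rw [mul_pow, ha, hb]
  one_mem' := one_pow _
  add_mem' {a b} ha hb := by
    have := (Algebra.charP_iff (ZMod p) K p).1 inferInstance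
    simp only [Set.mem_setOf_eq] at *; rw [add_pow_char_pow, ha, hb]
  zero_mem' := zero_pow (pow_ne_zero _ (Fact.out : p.Prime).ne_zero)
  neg_mem' {a} ha := by
    have := (Algebra.charP_iff (ZMod p) K p).1 inferInstance
    simp only [Set.mem_setOf_eq] at *
    rw [← zero_sub, sub_pow_char_pow, ha, zero_pow (pow_ne_zero _ (Fact.out : p.Prime).ne_zero)]
  inv_mem' a ha := by simp only [Set.mem_setOf_eq] at *; rw [inv_pow, ha]

theorem mem_Lf {d : ℕ} {x : K} : x ∈ Lf p K d ↔ x ^ p ^ d = x := Iff.rfl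

noncomputable instance fintypeLf (d : ℕ) : Fintype (Lf p K d) := Fintype.ofFinite _

/-- the additive character of the prime field, as a function on `K` -/
noncomputable def psi (p : ℕ) [Fact p.Prime] {K : Type} [Field K] [Algebra (ZMod p) K] (x : K) : ℂ :=
  if h : ∃ t : ZMod p, algebraMap (ZMod p) K t = x then ZMod.stdAddChar h.choose else 0

theorem psi_alg (t : ZMod p) : psi p (algebraMap (ZMod p) K t) = ZMod.stdAddChar t := by
  have h : ∃ s : ZMod p, algebraMap (ZMod p) K s = algebraMap (ZMod p) K t := ⟨t, rfl⟩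
  rw [psi, dif_pos h, (algebraMap (ZMod p) K).injective h.choose_spec]

/-- the trace from the subfield of degree `d` -/
def trc (p d : ℕ) (x : K) : K := ∑ i ∈ Finset.range d, x ^ p ^ i

/-- the monic polynomial of degree `k` with lower coefficients `c` -/
noncomputable def mon {F : Type} [Field F] {k : ℕ} (c : Fin k → F) : F[X] :=
  X ^ k + ∑ i, C (c i) * X ^ (i : ℕ)

/-- weight of a matrix -/
noncomputable def wt {ι : Type} [Fintype ι] [DecidableEq ι] (y : Matrix ι ι (ZMod p)) : ℂ :=
  if y.det = 0 then 0 else ZMod.stdAddChar y.trace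

/-- the untwisted sum -/
noncomputable def Ss (g : Matrix (Fin N) (Fin N) (ZMod p)) : ℂ :=
  ∑ y : Matrix (Fin N) (Fin N) (ZMod p), if y * g = g * y then wt y else 0

/-- the untwisted weight of a polynomial -/
noncomputable def phi0 (d : ℕ) (h : (Lf p K d)[X]) : ℂ :=
  if h.coeff 0 = 0 then 0 else psi p (trc p d (-(h.nextCoeff : K)))

namespace Dat
variable (D : Dat p N K)

/-- the injective character of `Kˣ` -/
noncomputable def io (a : K) : ℂ := if a = 0 then 0 else D.ζ ^ D.lg a

/-- index of the multiplicative group of the subfield of degree `d` -/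
def cc (d : ℕ) : ℕ := (p ^ D.e - 1) / (p ^ d - 1)

/-- logarithm of `a` in its own field -/
noncomputable def ell (a : K) : ℕ := D.lg a / D.cc (dg p a)

/-- the character of the field generated by `l` attached to `l` -/
noncomputable def chi (l x : K) : ℂ := D.io l ^ (D.lg x / D.cc (dg p l))

/-- projection onto the generalized `a`-eigenspace -/
noncomputable def pr {ι : Type} [Fintype ι] [DecidableEq ι] (a : K) (z : Matrix ι ι K) : Matrix ι ι K :=
  1 - (z ^ p ^ D.e - a • 1) ^ (p ^ D.e - 1)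

/-- the pairing, over `K` -/
noncomputable def thK {ι : Type} [Fintype ι] [DecidableEq ι] (z g : Matrix ι ι K) : ℂ :=
  ∏ a ∈ D.R, D.io (D.pr a z * g + (1 - D.pr a z)).det ^ D.ell a

/-- the pairing -/
noncomputable def th (y g : Matrix (Fin N) (Fin N) (ZMod p)) : ℂ :=
  D.thK (y.map (algebraMap (ZMod p) K)) (g.map (algebraMap (ZMod p) K))

/-- the twisted sum -/
noncomputable def Fs (g : Matrix (Fin N) (Fin N) (ZMod p)) : ℂ :=
  ∑ y : Matrix (Fin N) (Fin N) (ZMod p), if y * g = g * y then wt y * D.th y g else 0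

/-- weight of a root -/
noncomputable def w (l a : K) : ℂ :=
  ∏ i ∈ Finset.range (dg p l), if a ^ p ^ i ∈ D.R then D.io (l ^ p ^ i) ^ D.ell (a ^ p ^ i) else 1

/-- the twisted weight of a polynomial -/
noncomputable def phi (l : K) (h : (Lf p K (dg p l))[X]) : ℂ :=
  phi0 (dg p l) h * ((h.map (Lf p K (dg p l)).subtype).roots.map (D.w l)).prod

/-- the Gauss sum -/
noncomputable def gs (l : K) : ℂ :=
  ∑ a : Lf p K (dg p l), if a = 0 then 0 else psi p (trc p (dg p l) (a : K)) * D.chi l a

/-- The structure of the centralizer of a semisimple matrix. -/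
structure Str (g : Matrix (Fin N) (Fin N) (ZMod p)) where
  m : D.R → ℕ
  ε : Fin N ≃ Σ a : D.R, Fin (m a) × Fin (dg p (a : K))
  P : Matrix (Fin N) (Fin N) K
  P' : Matrix (Fin N) (Fin N) K
  PP : P * P' = 1
  Ψ : {y : Matrix (Fin N) (Fin N) (ZMod p) // y * g = g * y} ≃
    ∀ a : D.R, Matrix (Fin (m a)) (Fin (m a)) (Lf p K (dg p (a : K)))
  hΨ : ∀ y, P * y.1.map (algebraMap (ZMod p) K) * P' =
    (blockDiagonal' fun a : D.R => blockDiagonal fun i : Fin (dg p (a : K)) =>
      (Ψ y a).map fun x => (x : K) ^ p ^ (i : ℕ)).submatrix ε ε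
  hg : P * g.map (algebraMap (ZMod p) K) * P' = diagonal fun j => ((ε j).1 : K) ^ p ^ ((ε j).2.2 : ℕ)

end Dat

end CL.KA
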