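import Cfsg.Agent.KGV.A.Defs

set_option autoImplicit false
set_option linter.unusedSectionVars false

namespace CL.KA
open Polynomial Matrix CL.VCh CL.Blk Cfsg
open scoped Classical

variable {p N : ℕ} [Fact p.Prime] {K : Type} [Field K] [Fintype K] [Algebra (ZMod p) K]

theorem det_aeval_closed {L : Type} [Field L] [IsAlgClosed L] {ι : Type} [Fintype ι] [DecidableEq ι]
    (z : Matrix ι ι L) (s : Multiset L) (hs : z.charpoly = (s.map fun a => X - C a).prod)
    (hc : s.card = Fintype.card ι) (r : L[X]) :
    (aeval z r).det = (s.map fun a => r.eval a).prod := by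
  have key : ∀ t : Multiset L, ∀ c : L, (aeval z (C c * (t.map fun b => X - C b).prod)).det =
      (s.map fun a => (C c * (t.map fun b => X - C b).prod).eval a).prod := by
    intro t c
    induction t using Multiset.induction_on with
    | empty =>
      simp only [Multiset.map_zero, Multiset.prod_zero, mul_one, aeval_C, eval_C,
        Multiset.map_const', Multiset.prod_replicate, hc]
      rw [Algebra.algebraMap_eq_smul_one, det_smul, det_one, mul_one]
    | cons b t ih =>
      rw [Multiset.map_cons, Multiset.prod_cons, mul_left_comm, map_mul, det_mul, ih]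
      simp only [eval_mul (p := X - C b)]
      rw [Multiset.prod_map_mul]
      congr 1
      have h1 := Matrix.eval_charpoly z b
      rw [hs, eval_multiset_prod, Multiset.map_map] at h1
      have h2 : aeval z (X - C b) = -(scalar ι b - z) := by
        simp only [map_sub, aeval_X, aeval_C, neg_sub]; rfl
      rw [h2, det_neg, ← h1, ← hc, ← Multiset.prod_replicate, ← Multiset.map_const',
        ← Multiset.prod_map_mul]
      congr 1
      refine Multiset.map_congr rfl fun a _ => ?_
      simp
  have h := (IsAlgClosed.splits r).eq_prod_roots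
  rw [h]
  exact key _ _

/-- pass to `AlgebraicClosure K`, factor `r = c ∏ (X - b)`, `det (z - b) = ± charpoly(b) = ∏ (a - b)` (or induction / resultants). -/
theorem det_aeval {ι : Type} [Fintype ι] [DecidableEq ι] (z : Matrix ι ι K) (hz : z.charpoly.roots.card = Fintype.card ι) (r : K[X]) :
    (aeval z r).det = (z.charpoly.roots.map fun a => r.eval a).prod := by
  let L := AlgebraicClosure K
  let f := algebraMap K L
  have h1 : z.charpoly = (z.charpoly.roots.map fun a => X - C a).prod :=
    (prod_multiset_X_sub_C_of_monic_of_roots_card_eq z.charpoly_monic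
      (by rw [hz, charpoly_natDegree_eq_dim])).symm
  have h2 := det_aeval_closed (z.map f) (z.charpoly.roots.map f) (by
    rw [charpoly_map]
    conv_lhs => rw [h1]
    rw [Polynomial.map_multiset_prod, Multiset.map_map, Multiset.map_map]
    congr 1
    refine Multiset.map_congr rfl fun a _ => ?_
    simp) (by rw [Multiset.card_map, hz]) (r.map f)
  apply f.injective
  rw [RingHom.map_det, map_multiset_prod, Multiset.map_map]
  have h3 : ∀ r : K[X], f.mapMatrix (aeval z r) = aeval (z.map f) (r.map f) := fun r => by
    induction r using Polynomial.induction_on' with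
    | add a b ha hb => rw [map_add, map_add, ha, hb, Polynomial.map_add, map_add]
    | monomial n c =>
      rw [Polynomial.map_monomial, aeval_monomial, aeval_monomial, map_mul, map_pow]
      congr 1
      ext i j
      simp [Matrix.algebraMap_matrix_apply, apply_ite f]
  rw [h3, h2, Multiset.map_map]
  congr 1
  refine Multiset.map_congr rfl fun a _ => ?_
  simp only [Function.comp_apply, eval_map_algebraMap, f]
  rw [aeval_algebraMap_apply, coe_aeval_eq_eval]

/-- `det_aeval` with `r = C μ * (1 - (X^Q - C a)^(Q-1)) + (X^Q - C a)^(Q-1)`: `r b = μ` if `b = a`, else `1`. -/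
theorem Dat.det_pr (D : Dat p N K) {ι : Type} [Fintype ι] [DecidableEq ι] (z : Matrix ι ι K)
    (hz : z.charpoly.roots.card = Fintype.card ι) (a μ : K) :
    (D.pr a z * (μ • (1 : Matrix ι ι K)) + (1 - D.pr a z)).det = μ ^ z.charpoly.roots.count a := by
  have h := det_aeval z hz (C μ * (1 - (X ^ p ^ D.e - C a) ^ (p ^ D.e - 1)) + (X ^ p ^ D.e - C a) ^ (p ^ D.e - 1))
  have e : aeval z (C μ * (1 - (X ^ p ^ D.e - C a) ^ (p ^ D.e - 1)) + (X ^ p ^ D.e - C a) ^ (p ^ D.e - 1)) =
      D.pr a z * (μ • (1 : Matrix ι ι K)) + (1 - D.pr a z) := by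
    simp only [map_add, map_mul, map_sub, map_pow, aeval_C, aeval_X, map_one, Dat.pr,
      Algebra.algebraMap_eq_smul_one, smul_mul_assoc, one_mul, mul_smul_comm, mul_one, sub_sub_cancel]
  rw [← e, h]
  have hq : p ^ D.e - 1 ≠ 0 :=
    (Nat.sub_pos_of_lt (Nat.one_lt_pow D.e_pos.ne' (Fact.out : p.Prime).one_lt)).ne'
  have hv : ∀ b : K, (C μ * (1 - (X ^ p ^ D.e - C a) ^ (p ^ D.e - 1)) +
      (X ^ p ^ D.e - C a) ^ (p ^ D.e - 1)).eval b = if a = b then μ else 1 := fun b => by
    have hb : b ^ p ^ D.e = b := by rw [← D.card, FiniteField.pow_card]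
    simp only [eval_add, eval_mul, eval_sub, eval_pow, eval_C, eval_X, eval_one, hb]
    split_ifs with hab
    · rw [hab, sub_self, zero_pow hq]; simp
    · rw [← D.card, FiniteField.pow_card_sub_one_eq_one _ (sub_ne_zero.2 (Ne.symm hab))]; simp
  simp only [hv]
  induction z.charpoly.roots using Multiset.induction_on with
  | empty => simp
  | cons b s ih =>
    rw [Multiset.map_cons, Multiset.prod_cons, ih, Multiset.count_cons]
    split_ifs <;> simp [pow_add, mul_comm]

end CL.KA
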