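import Cfsg.Agent.KGV.A.EvT

set_option autoImplicit false
set_option linter.unusedSectionVars false

namespace CL.KA
open Polynomial Matrix CL.VCh CL.Blk Cfsg
open scoped Classical

variable {p N : ℕ} [Fact p.Prime] {K : Type} [Field K] [Fintype K] [Algebra (ZMod p) K]

theorem Ev.det_bd {o F : Type} [Fintype o] [DecidableEq o] [Field F] {m : o → Type} [∀ i, Fintype (m i)]
    [∀ i, DecidableEq (m i)] (M : ∀ i, Matrix (m i) (m i) F) :
    (blockDiagonal' M).det = 0 ↔ ∃ i, (M i).det = 0 := by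
  constructor
  · intro h
    by_contra hn
    push Not at hn
    have h1 : blockDiagonal' M * blockDiagonal' (fun i => (M i)⁻¹) = 1 := by
      rw [← blockDiagonal'_mul, ← blockDiagonal'_one]
      congr 1
      funext i
      exact mul_nonsing_inv _ (Ne.isUnit (hn i))
    have h2 := congrArg det h1
    rw [det_mul, h, zero_mul, det_one] at h2
    exact zero_ne_one h2
  · rintro ⟨i, hi⟩
    obtain ⟨v, hv, h0⟩ := exists_mulVec_eq_zero_iff.2 hi
    refine exists_mulVec_eq_zero_iff.1 ⟨fun s => if h : s.1 = i then v (h ▸ s.2) else 0, fun h => hv ?_, ?_⟩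
    · funext j
      simpa using congrFun h ⟨i, j⟩
    · funext s
      obtain ⟨k, j⟩ := s
      rw [mulVec, dotProduct, Fintype.sum_sigma, Finset.sum_eq_single i]
      · by_cases hk : k = i
        · subst hk
          simpa [mulVec, dotProduct] using congrFun h0 j
        · simp [blockDiagonal'_apply_ne _ _ _ hk]
      · intro b _ hb
        simp [hb]
      · simp

theorem Ev.psi_sum {ι : Type} (s : Finset ι) (x : ι → K) (h : ∀ i, ∃ t : ZMod p, algebraMap (ZMod p) K t = x i) :
    psi p (∑ i ∈ s, x i) = ∏ i ∈ s, psi p (x i) := by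
  choose t ht using h
  simp only [← ht, ← map_sum, psi_alg]
  induction s using Finset.induction_on with
  | empty => simp
  | insert a s ha ih => rw [Finset.sum_insert ha, Finset.prod_insert ha, AddChar.map_add_eq_mul, ih]

theorem Dat.Str.wt_eq (D : Dat p N K) {g : Matrix (Fin N) (Fin N) (ZMod p)} (T : D.Str g) (y : {y : Matrix (Fin N) (Fin N) (ZMod p) // y * g = g * y}) :
    wt y.1 = ∏ a : D.R, phi0 (dg p (a : K)) (T.Ψ y a).charpoly := by
  have hch := (Algebra.charP_iff (ZMod p) K p).1 inferInstance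
  have hPP' : T.P' * T.P = 1 := mul_eq_one_comm.1 T.PP
  have hmap : ∀ (a : D.R) (i : ℕ), ((T.Ψ y a).map fun x => (x : K) ^ p ^ i) =
      (((iterateFrobenius K p i).comp (Lf p K (dg p (a : K))).subtype).mapMatrix (T.Ψ y a)) := fun a i => by
    ext j k; simp [iterateFrobenius_def]
  have hd : y.1.det = 0 ↔ ∃ a, (T.Ψ y a).det = 0 := by
    have h := congrArg det (T.hΨ y)
    have h1 : T.P.det * T.P'.det = 1 := by rw [← det_mul, T.PP, det_one]
    rw [det_mul, det_mul, mul_right_comm, h1, one_mul, det_submatrix_equiv_self] at h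
    have h2 : (y.1.map (algebraMap (ZMod p) K)).det = algebraMap (ZMod p) K y.1.det :=
      ((algebraMap (ZMod p) K).map_det y.1).symm
    rw [← map_eq_zero_iff _ (algebraMap (ZMod p) K).injective, ← h2, h, Ev.det_bd]
    refine exists_congr fun a => ?_
    rw [det_blockDiagonal, Finset.prod_eq_zero_iff]
    simp only [hmap, ← RingHom.map_det, map_eq_zero_iff _ (RingHom.injective _), Finset.mem_univ, true_and]
    exact ⟨fun ⟨_, h⟩ => h, fun h => ⟨⟨0, D.dg_pos _⟩, h⟩⟩
  have ht : algebraMap (ZMod p) K y.1.trace = ∑ a : D.R, trc p (dg p (a : K)) ((T.Ψ y a).trace : K) := by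
    have h := congrArg trace (T.hΨ y)
    rw [trace_mul_cycle, hPP', one_mul] at h
    have h2 : (y.1.map (algebraMap (ZMod p) K)).trace = algebraMap (ZMod p) K y.1.trace := by
      simp [trace, map_sum]
    rw [← h2, h]
    have h3 : ∀ A : Matrix (Σ a : D.R, Fin (T.m a) × Fin (dg p (a : K))) (Σ a : D.R, Fin (T.m a) × Fin (dg p (a : K))) K,
        (A.submatrix T.ε T.ε).trace = A.trace := fun A => by
      simp only [trace, diag, submatrix_apply]
      exact Equiv.sum_comp T.ε fun j => A j j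
    rw [h3, trace_blockDiagonal']
    refine Finset.sum_congr rfl fun a _ => ?_
    rw [trace_blockDiagonal, trc, Finset.sum_range]
    refine Finset.sum_congr rfl fun i _ => ?_
    simp [trace, sum_pow_char_pow]
  have hc : ∀ a, (T.Ψ y a).charpoly.coeff 0 = 0 ↔ (T.Ψ y a).det = 0 := fun a => by
    rw [det_eq_sign_charpoly_coeff]; simp
  have hn : ∀ a : D.R, -(((T.Ψ y a).charpoly.nextCoeff : Lf p K (dg p (a : K))) : K) = ((T.Ψ y a).trace : K) := fun a => by
    rw [trace_eq_neg_charpoly_nextCoeff]; simp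
  unfold wt phi0
  simp only [hc, hn]
  by_cases h0 : y.1.det = 0
  · obtain ⟨a, ha⟩ := hd.1 h0
    rw [if_pos h0]
    symm
    refine Finset.prod_eq_zero (M₀ := ℂ) (Finset.mem_univ a) ?_
    rw [if_pos ha]
  · have h1 : ∀ a, ¬ (T.Ψ y a).det = 0 := fun a ha => h0 (hd.2 ⟨a, ha⟩)
    simp only [h0, h1, if_false]
    rw [← psi_alg (K := K), ht, Ev.psi_sum _ _ fun a => trc_mem (T.Ψ y a).trace.2]

theorem Ev.sum_eq (D : Dat p N K) {g : Matrix (Fin N) (Fin N) (ZMod p)} (T : D.Str g)
    (f : Matrix (Fin N) (Fin N) (ZMod p) → ℂ)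
    (φ : ∀ a : D.R, Matrix (Fin (T.m a)) (Fin (T.m a)) (Lf p K (dg p (a : K))) → ℂ)
    (h : ∀ y : {y : Matrix (Fin N) (Fin N) (ZMod p) // y * g = g * y}, f y.1 = ∏ a, φ a (T.Ψ y a)) :
    (∑ y : Matrix (Fin N) (Fin N) (ZMod p), if y * g = g * y then f y else 0) = ∏ a, ∑ z, φ a z := by
  rw [← Finset.sum_filter, Finset.sum_subtype (p := fun y => y * g = g * y) _ (by simp), Finset.prod_univ_sum,
    Fintype.piFinset_univ, ← Equiv.sum_comp T.Ψ]
  exact Finset.sum_congr rfl fun y _ => h y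

theorem Dat.Str.Fs_eq (D : Dat p N K) {g : Matrix (Fin N) (Fin N) (ZMod p)} (T : D.Str g) :
    D.Fs g = ∏ a : D.R, ∑ z : Matrix (Fin (T.m a)) (Fin (T.m a)) (Lf p K (dg p (a : K))), D.phi a z.charpoly :=
  Ev.sum_eq D T (fun y => wt y * D.th y g) (fun a z => D.phi a z.charpoly) fun y => by
    rw [Dat.Str.wt_eq D T y, Dat.Str.th_eq D T y, ← Finset.prod_mul_distrib]; rfl
theorem Dat.Str.Ss_eq (D : Dat p N K) {g : Matrix (Fin N) (Fin N) (ZMod p)} (T : D.Str g) :
    Ss g = ∏ a : D.R, ∑ z : Matrix (Fin (T.m a)) (Fin (T.m a)) (Lf p K (dg p (a : K))), phi0 (dg p (a : K)) z.charpoly :=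
  Ev.sum_eq D T wt (fun a z => phi0 (dg p (a : K)) z.charpoly) fun y => Dat.Str.wt_eq D T y

end CL.KA
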