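import Cfsg.Agent.KGV.A.Mul
import Cfsg.Agent.KGV.A.Det

set_option autoImplicit false
set_option linter.unusedSectionVars false

namespace CL.KA
open Polynomial Matrix CL.VCh CL.Blk Cfsg
open scoped Classical

variable {p N : ℕ} [Fact p.Prime] {K : Type} [Field K] [Fintype K] [Algebra (ZMod p) K]

namespace EvT

theorem det_bd' {R : Type*} [CommRing R] {ι : Type*} [Fintype ι] [DecidableEq ι] {m : ι → Type*} [∀ i, Fintype (m i)]
    [∀ i, DecidableEq (m i)] (M : ∀ i, Matrix (m i) (m i) R) : (blockDiagonal' M).det = ∏ i, (M i).det := by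
  let _ : LinearOrder ι := LinearOrder.lift' (Fintype.equivFin ι) (Equiv.injective _)
  have h := Matrix.BlockTriangular.det_fintype (Matrix.blockTriangular_blockDiagonal' M)
  refine (by convert h : _ = ∏ k, ((blockDiagonal' M).toSquareBlock Sigma.fst k).det).trans
    (Finset.prod_congr rfl fun i _ => ?_)
  rw [← det_submatrix_equiv_self (Equiv.sigmaSubtype i).symm]
  congr 1
  ext a b
  simp [toSquareBlock_def, Equiv.sigmaSubtype]

variable {ι n : Type} [Fintype ι] [DecidableEq ι] [Fintype n] [DecidableEq n] {m d : ι → ℕ}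
  (ε : n ≃ Σ a : ι, Fin (m a) × Fin (d a))

/-- the block embedding -/
noncomputable def Φ : (∀ a : ι, Fin (d a) → Matrix (Fin (m a)) (Fin (m a)) K) →+* Matrix n n K :=
  (Matrix.reindexAlgEquiv K K ε.symm).toRingEquiv.toRingHom.comp ((blockDiagonal'RingHom _ K).comp
    (RingHom.pi fun a => (blockDiagonalRingHom _ _ K).comp (Pi.evalRingHom _ a)))

theorem Φ_apply (B : ∀ a : ι, Fin (d a) → Matrix (Fin (m a)) (Fin (m a)) K) :
    Φ ε B = (blockDiagonal' fun a => blockDiagonal (B a)).submatrix ε ε := rfl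

theorem Φ_det (B : ∀ a : ι, Fin (d a) → Matrix (Fin (m a)) (Fin (m a)) K) :
    (Φ ε B).det = ∏ a, ∏ i, (B a i).det := by
  rw [Φ_apply, det_submatrix_equiv_self, det_bd']
  simp_rw [det_blockDiagonal]

theorem Φ_diag (c : ∀ a : ι, Fin (d a) → K) :
    Φ ε (fun a i => c a i • (1 : Matrix (Fin (m a)) (Fin (m a)) K)) = diagonal fun j => c (ε j).1 (ε j).2.2 := by
  rw [Φ_apply]
  have : (blockDiagonal' fun a => blockDiagonal fun i => c a i • (1 : Matrix (Fin (m a)) (Fin (m a)) K)) =
      diagonal fun j : (Σ a : ι, Fin (m a) × Fin (d a)) => c j.1 j.2.2 := by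
    simp_rw [smul_one_eq_diagonal, blockDiagonal_diagonal, blockDiagonal'_diagonal]
  rw [this, submatrix_diagonal_equiv]; rfl

theorem Φ_pr (D : Dat p N K) (b : K) (B : ∀ a : ι, Fin (d a) → Matrix (Fin (m a)) (Fin (m a)) K) :
    D.pr b (Φ ε B) = Φ ε fun a i => D.pr b (B a i) := by
  have h : b • (1 : Matrix n n K) = Φ ε fun a i => b • 1 := by rw [Φ_diag, smul_one_eq_diagonal]
  rw [Dat.pr, h, ← map_pow, ← map_sub, ← map_pow, ← map_one (Φ ε), ← map_sub]; rfl

theorem thK_Φ (D : Dat p N K) (B : ∀ a : ι, Fin (d a) → Matrix (Fin (m a)) (Fin (m a)) K)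
    (hB : ∀ a i, (B a i).charpoly.roots.card = Fintype.card (Fin (m a))) (c : ∀ a : ι, Fin (d a) → K) :
    D.thK (Φ ε B) (diagonal fun j => c (ε j).1 (ε j).2.2) =
      ∏ a, ∏ i, ∏ b ∈ D.R, (D.io (c a i) ^ D.ell b) ^ (B a i).charpoly.roots.count b := by
  have io_prod : ∀ {α : Type} (s : Finset α) (f : α → K), D.io (∏ x ∈ s, f x) = ∏ x ∈ s, D.io (f x) := fun s f => by
    induction s using Finset.induction_on with
    | empty => simp [D.io_one]
    | insert x s hx ih => rw [Finset.prod_insert hx, Finset.prod_insert hx, D.io_mul, ih]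
  rw [Dat.thK, ← Φ_diag]
  simp_rw [Finset.prod_comm (t := D.R)]
  refine Finset.prod_congr rfl fun b _ => ?_
  rw [Φ_pr, ← map_mul, ← map_one (Φ ε), ← map_sub, ← map_add, Φ_det, io_prod, ← Finset.prod_pow]
  refine Finset.prod_congr rfl fun a _ => ?_
  rw [io_prod, ← Finset.prod_pow]
  refine Finset.prod_congr rfl fun i _ => ?_
  rw [← pow_mul, mul_comm, pow_mul, ← D.io_pow (c a i), ← D.det_pr _ (hB a i)]; rfl

theorem prod_count (R : Finset K) (f : K → ℂ) (s : Multiset K) :
    ∏ b ∈ R, f b ^ s.count b = (s.map fun x => if x ∈ R then f x else 1).prod := by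
  induction s using Multiset.induction_on with
  | empty => simp
  | cons x s ih =>
    simp_rw [Multiset.map_cons, Multiset.prod_cons, ← ih, Multiset.count_cons, pow_add, Finset.prod_mul_distrib, pow_ite,
      pow_one, pow_zero, Finset.prod_ite_eq']
    exact mul_comm _ _

end EvT
open EvT

theorem Dat.Str.le (D : Dat p N K) {g : Matrix (Fin N) (Fin N) (ZMod p)} (T : D.Str g) (a : D.R) : T.m a * dg p (a : K) ≤ N := by
  have h := Fintype.card_congr T.ε
  simp only [Fintype.card_fin, Fintype.card_sigma, Fintype.card_prod] at h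
  exact (Finset.single_le_sum (f := fun a : D.R => T.m a * dg p (a : K)) (fun _ _ => Nat.zero_le _)
    (Finset.mem_univ a)).trans h.ge

/-- `thK_conj`, `hΨ`, `hg`; `pr` and the determinant are computed blockwise; on the block `(a, i)` `g` is the scalar `a ^ p ^ i`;
the roots of the block `i` are the `p ^ i`-th powers of the roots of the block `0`. -/
theorem Dat.Str.th_eq (D : Dat p N K) {g : Matrix (Fin N) (Fin N) (ZMod p)} (T : D.Str g) (y : {y : Matrix (Fin N) (Fin N) (ZMod p) // y * g = g * y}) :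
    D.th y.1 g = ∏ a : D.R, ((((T.Ψ y a).charpoly.map (Lf p K (dg p (a : K))).subtype).roots.map (D.w a)).prod) := by
  have := (Algebra.charP_iff (ZMod p) K p).1 inferInstance
  have hn : ∀ a : D.R, ((T.Ψ y a).charpoly.map (Lf p K (dg p (a : K))).subtype).natDegree = T.m a := fun a => by
    rw [(charpoly_monic _).natDegree_map, charpoly_natDegree_eq_dim, Fintype.card_fin]
  have hs : ∀ a : D.R, ((T.Ψ y a).charpoly.map (Lf p K (dg p (a : K))).subtype).roots.card =
      ((T.Ψ y a).charpoly.map (Lf p K (dg p (a : K))).subtype).natDegree := fun a =>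
    D.spl _ _ (D.dg_pos a) ((charpoly_monic _).map _) (fun i => by rw [coeff_map]; exact ((T.Ψ y a).charpoly.coeff i).2)
      (by rw [hn]; exact Dat.Str.le D T a)
  have hr : ∀ (a : D.R) (i : ℕ), ((T.Ψ y a).map fun x => (x : K) ^ p ^ i).charpoly.roots =
      ((T.Ψ y a).charpoly.map (Lf p K (dg p (a : K))).subtype).roots.map fun x => x ^ p ^ i := fun a i => by
    have h := roots_map_of_injective_of_card_eq_natDegree (iterateFrobenius K p i).injective (hs a)
    rw [Polynomial.map_map, ← charpoly_map _ ((iterateFrobenius K p i).comp _)] at h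
    exact h.symm
  rw [Dat.th, ← D.thK_conj T.PP, T.hΨ, T.hg, ← Φ_apply]
  refine (thK_Φ T.ε D _ (fun a i => ?_) fun a i => (a : K) ^ p ^ (i : ℕ)).trans (Finset.prod_congr rfl fun a _ => ?_)
  · rw [hr, Multiset.card_map, hs, hn, Fintype.card_fin]
  · simp_rw [prod_count, hr, Multiset.map_map]
    unfold Dat.w
    rw [Multiset.prod_map_prod, Finset.prod_range]
    rfl

end CL.KA
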