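import Cfsg.Agent.KGV.A.Defs

set_option autoImplicit false
set_option linter.unusedSectionVars false

namespace CL.KA
open Polynomial Matrix CL.VCh CL.Blk Cfsg
open scoped Classical

variable {p N : ℕ} [Fact p.Prime] {K : Type} [Field K] [Fintype K] [Algebra (ZMod p) K]

namespace Ex34

theorem pow_iter {L : Type} [Monoid L] {q : ℕ} {x : L} (h : x ^ q = x) (k : ℕ) : x ^ q ^ k = x := by
  induction k with
  | zero => simp
  | succ k ih => rw [pow_succ, pow_mul, ih, h]

theorem mem_range {L : Type} [Field L] (f : K →+* L) {x : L} (hx : x ^ Fintype.card K = x) :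
    x ∈ f.range := by
  have h1 : 1 < Fintype.card K := Fintype.one_lt_card
  have hne : (X ^ Fintype.card K - X : K[X]) ≠ 0 := FiniteField.X_pow_card_sub_X_ne_zero K h1
  have hs : (X ^ Fintype.card K - X : K[X]).Splits := by
    rw [splits_iff_card_roots, FiniteField.roots_X_pow_card_sub_X,
      FiniteField.X_pow_card_sub_X_natDegree_eq K h1]
    rfl
  have h2 : x ∈ ((X ^ Fintype.card K - X : K[X]).map f).roots := by
    rw [mem_roots ((Polynomial.map_ne_zero_iff f.injective).2 hne)]
    simp [hx]
  rw [hs.roots_map, Multiset.mem_map] at h2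
  obtain ⟨a, -, rfl⟩ := h2
  exact ⟨a, rfl⟩

theorem spl {e : ℕ} (hc : Fintype.card K = p ^ e) (he : ∀ j, 0 < j → j ≤ N → j ∣ e) (d : ℕ) (h : K[X])
    (hd : 0 < d) (hm : h.Monic) (hf : ∀ i, h.coeff i ^ p ^ d = h.coeff i) (hN : h.natDegree * d ≤ N) :
    h.roots.card = h.natDegree := by
  have hK : CharP K p := (Algebra.charP_iff (ZMod p) K p).1 inferInstance
  let L := AlgebraicClosure K
  have hL : CharP L p := (Algebra.charP_iff K L p).1 hK
  let f := algebraMap K L
  let σ : L →+* L := iterateFrobenius L p d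
  have hσ : ∀ x, σ x = x ^ p ^ d := fun x => rfl
  have h0 : h.map f ≠ 0 := (hm.map f).ne_zero
  have hh : (h.map f).map σ = h.map f := by
    ext i
    rw [coeff_map, coeff_map, hσ, ← map_pow, hf]
  have hr : ∀ x ∈ (h.map f).roots, σ x ∈ (h.map f).roots := fun x hx => by
    rw [mem_roots h0] at hx ⊢
    have := hx.map (f := σ)
    rwa [hh] at this
  refine splits_iff_card_roots.1 (Splits.of_splits_map f (IsAlgClosed.splits _) fun x hx => ?_)
  refine mem_range f ?_
  have hi : ∀ i : ℕ, σ^[i] x ∈ (h.map f).roots.toFinset := fun i => by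
    rw [Multiset.mem_toFinset]
    induction i with
    | zero => exact hx
    | succ i ih => rw [Function.iterate_succ_apply']; exact hr _ ih
  have hcard : (h.map f).roots.toFinset.card < (Finset.range (h.natDegree + 1)).card := by
    rw [Finset.card_range, Nat.lt_succ_iff]
    exact (Multiset.toFinset_card_le _).trans ((card_roots' _).trans natDegree_map_le)
  have key : ∀ a b : ℕ, a < b → b ≤ h.natDegree → σ^[a] x = σ^[b] x → x ^ Fintype.card K = x := by
    intro a b hab hb hx
    obtain ⟨c, rfl⟩ := Nat.exists_eq_add_of_lt hab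
    rw [add_assoc, Function.iterate_add_apply] at hx
    have h1 := (σ.injective.iterate a) hx
    have h2 : ∀ j : ℕ, σ^[j] x = x ^ p ^ (d * j) := fun j => by
      induction j with
      | zero => simp
      | succ j ih => rw [Function.iterate_succ_apply', ih, hσ, ← pow_mul, ← pow_add, mul_add, mul_one]
    rw [h2] at h1
    obtain ⟨k, hk⟩ := he (d * (c + 1)) (by positivity)
      (le_trans (by rw [mul_comm]; exact Nat.mul_le_mul_right _ (by omega)) hN)
    rw [hc, hk, pow_mul]
    exact pow_iter h1.symm k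
  obtain ⟨a, ha, b, hb, hab, hx⟩ := Finset.exists_ne_map_eq_of_card_lt_of_maps_to hcard
    (f := fun i => σ^[i] x) fun i _ => hi i
  rw [Finset.mem_range, Nat.lt_succ_iff] at ha hb
  rcases lt_or_gt_of_ne hab with h1 | h1
  · exact key a b h1 hb hx
  · exact key b a h1 ha hx.symm

end Ex34

/-- `K = GaloisField p e`, `e = (N+1)!`. -/
theorem exists_dat (p N : ℕ) [Fact p.Prime] :
    ∃ (K : Type) (_ : Field K) (_ : Fintype K) (_ : Algebra (ZMod p) K), Nonempty (Dat p N K) := by
  have hp : p.Prime := Fact.out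
  let e := (N + 1).factorial
  have he : 0 < e := Nat.factorial_pos _
  let K := GaloisField p e
  let _ : Fintype K := Fintype.ofFinite K
  have hc : Fintype.card K = p ^ e := by
    rw [← Nat.card_eq_fintype_card]; exact GaloisField.card p e he.ne'
  obtain ⟨g, hg⟩ := IsCyclic.exists_monoid_generator (α := Kˣ)
  have hq : p ^ e - 1 ≠ 0 := Nat.sub_ne_zero_of_lt (Nat.one_lt_pow he.ne' hp.one_lt)
  have hl : ∀ a : K, ∃ n : ℕ, a ≠ 0 → (g : K) ^ n = a := fun a => by
    by_cases ha : a = 0
    · exact ⟨0, fun h => (h ha).elim⟩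
    · obtain ⟨n, hn⟩ := hg (Units.mk0 a ha)
      exact ⟨n, fun _ => by simpa using congrArg Units.val hn⟩
  choose lg hlg using hl
  let ix : K → ℕ := fun a => (Fintype.equivFin K a : ℕ)
  have hix : Function.Injective ix := Fin.val_injective.comp (Fintype.equivFin K).injective
  refine ⟨K, inferInstance, inferInstance, inferInstance, ⟨{
    e := e
    card := hc
    e_pos := he
    le := ((Nat.le_succ N).trans (Nat.self_le_factorial _)).trans (Nat.lt_pow_self hp.one_lt).le
    γ := g
    lg := lg
    γ_ord := ?_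
    γ_lg := hlg
    ζ := _
    ζ_prim := Complex.isPrimitiveRoot_exp _ hq
    R := Finset.univ.filter fun a => a ≠ 0 ∧ ∀ i : ℕ, ix a ≤ ix (a ^ p ^ i)
    R_ne := fun a ha => (Finset.mem_filter.1 ha).2.1
    R_ex := fun a ha => ?_
    R_uq := fun a ha i hi => ?_
    spl := Ex34.spl hc fun j h0 hj => Nat.dvd_factorial h0 (hj.trans (Nat.le_succ N)) }⟩⟩
  · rw [orderOf_units, orderOf_eq_card_of_forall_mem_powers hg, Nat.card_units,
      Nat.card_eq_fintype_card, hc]
  · refine ⟨Function.argmin fun i : ℕ => ix (a ^ p ^ i), Finset.mem_filter.2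
      ⟨Finset.mem_univ _, pow_ne_zero _ ha, fun j => ?_⟩⟩
    rw [← pow_mul, ← pow_add]
    exact Function.argmin_le (fun i : ℕ => ix (a ^ p ^ i)) _
  · have h1 := (Finset.mem_filter.1 ha).2.2 i
    have h2 := (Finset.mem_filter.1 hi).2.2 (e * i - i)
    rw [← pow_mul, ← pow_add, Nat.add_sub_cancel' (Nat.le_mul_of_pos_left i he), pow_mul,
      Ex34.pow_iter (q := p ^ e) (by rw [← hc]; exact FiniteField.pow_card a)] at h2
    exact hix (le_antisymm h2 h1)

end CL.KA
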