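import Cfsg.Agent.KGV.A.Bas

set_option autoImplicit false
set_option linter.unusedSectionVars false

namespace CL.KA
open Polynomial Matrix CL.VCh CL.Blk Cfsg
open scoped Classical

variable {p N : ℕ} [Fact p.Prime] {K : Type} [Field K] [Fintype K] [Algebra (ZMod p) K]

/-- the additive character -/
noncomputable def gsAdd (p : ℕ) [Fact p.Prime] (K : Type) [Field K] [Fintype K] [Algebra (ZMod p) K]
    (d : ℕ) : AddChar (Lf p K d) ℂ where
  toFun a := psi p (trc p d (a : K))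
  map_zero_eq_one' := psi_trc_zero d
  map_add_eq_mul' a b := psi_trc_add a.2 b.2

theorem Dat.gsq_pos (D : Dat p N K) : 0 < p ^ D.e - 1 :=
  Nat.sub_pos_of_lt (Nat.one_lt_pow D.e_pos.ne' (Fact.out : p.Prime).one_lt)

theorem Dat.gs_chi_ne (D : Dat p N K) {l : K} (hl : l ≠ 0) (x : K) : D.chi l x ≠ 0 := fun h => by
  have := D.chi_pow hl x
  rw [h, zero_pow D.gsq_pos.ne'] at this
  exact zero_ne_one this

/-- the multiplicative character -/
noncomputable def Dat.gsMul (D : Dat p N K) {l : K} (hl : l ≠ 0) : MulChar (Lf p K (dg p l)) ℂ where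
  toFun a := if a = 0 then 0 else D.chi l a
  map_one' := by
    have h := D.chi_mul hl (Subfield.one_mem _) (Subfield.one_mem _) one_ne_zero one_ne_zero
    rw [mul_one] at h
    rw [if_neg one_ne_zero]
    exact mul_left_cancel₀ (D.gs_chi_ne hl 1) (by rw [mul_one]; exact h.symm)
  map_mul' a b := by
    by_cases ha : a = 0
    · simp [ha]
    by_cases hb : b = 0
    · simp [hb]
    rw [if_neg ha, if_neg hb, if_neg (mul_ne_zero ha hb)]
    exact D.chi_mul hl a.2 b.2 (fun h => ha (Subtype.ext h)) (fun h => hb (Subtype.ext h))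
  map_nonunit' a ha := by
    rw [if_pos (by simpa using ha)]

theorem Dat.gs_eq (D : Dat p N K) {l : K} (hl : l ≠ 0) :
    D.gs l = gaussSum (D.gsMul hl) (gsAdd p K (dg p l)) := by
  rw [Dat.gs, gaussSum]
  refine Finset.sum_congr rfl fun a _ => ?_
  change _ = (if a = 0 then 0 else D.chi l a) * psi p (trc p (dg p l) (a : K))
  split_ifs
  · rw [zero_mul]
  · rw [mul_comm]

theorem Dat.gsAdd_ne (D : Dat p N K) (l : K) : gsAdd p K (dg p l) ≠ 1 := fun h => by
  obtain ⟨x, hx, h1⟩ := D.psi_ne (D.dg_pos l) (D.dg_dvd l)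
  exact h1 (DFunLike.congr_fun h ⟨x, hx⟩)

theorem Dat.gsMul_ne (D : Dat p N K) {l : K} (hl : l ≠ 0) (h1 : l ≠ 1) : D.gsMul hl ≠ 1 := fun h => by
  obtain ⟨x, hx, h0, h2⟩ := D.chi_ne hl h1
  have h0' : (⟨x, hx⟩ : Lf p K (dg p l)) ≠ 0 := fun e => h0 (congrArg Subtype.val e)
  have h3 := DFunLike.congr_fun h ⟨x, hx⟩
  rw [MulChar.one_apply (IsUnit.mk0 _ h0')] at h3
  change (if (⟨x, hx⟩ : Lf p K (dg p l)) = 0 then 0 else D.chi l x) = 1 at h3
  rw [if_neg h0'] at h3
  exact h2 h3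

theorem Dat.gs_one (D : Dat p N K) : D.gs 1 = -1 := by
  have h : D.gsMul (one_ne_zero (α := K)) = 1 := by
    refine MulChar.ext fun a => ?_
    rw [MulChar.one_apply_coe]
    change (if (a : Lf p K (dg p (1 : K))) = 0 then 0 else D.chi 1 _) = 1
    rw [if_neg a.ne_zero, Dat.chi, D.io_one, one_pow]
  rw [D.gs_eq one_ne_zero, h]
  exact gaussSum_one_left (D.gsAdd_ne 1)

theorem Dat.gs_int (D : Dat p N K) {l : K} (hl : l ≠ 0) : IsIntegral ℤ (D.gs l) := by
  refine IsIntegral.sum _ fun a _ => ?_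
  split_ifs
  · exact isIntegral_zero
  · exact (IsIntegral.of_pow (Fact.out : p.Prime).pos (psi_trc_pow a.2 ▸ isIntegral_one)).mul
      (IsIntegral.of_pow D.gsq_pos (D.chi_pow hl _ ▸ isIntegral_one))

theorem Dat.gs_fix (D : Dat p N K) {l : K} (hl : l ≠ 0) {n : ℕ} (hn : p * (p ^ D.e - 1) ∣ n) : D.gs l ∈ Fix n := by
  obtain ⟨c, rfl⟩ := hn
  refine sum_mem fun a _ => ?_
  split_ifs
  · exact zero_mem _
  · refine mul_mem (root_mem_fix ?_) (root_mem_fix ?_)
    · rw [mul_assoc, pow_mul, psi_trc_pow a.2, one_pow]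
    · rw [mul_comm p, mul_assoc, pow_mul, D.chi_pow hl, one_pow]

/-- classical Gauss sum (`gaussSum_mul_gaussSum_eq_card`, or the proof of `VCh.exists_gauss`) for `σ ∘ chi`, `σ ∘ psi ∘ trc` on the field `Lf d`. -/
theorem Dat.gs_norm (D : Dat p N K) {l : K} (hl : l ≠ 0) (h1 : l ≠ 1) (σ : ℂ →+* ℂ) : ‖σ (D.gs l)‖ ^ 2 = (p : ℝ) ^ dg p l := by
  have he : (gsAdd p K (dg p l)).IsPrimitive := AddChar.IsPrimitive.of_ne_one (D.gsAdd_ne l)
  have h2 : (D.gsMul hl).ringHomComp σ ≠ 1 :=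
    (MulChar.ringHomComp_ne_one_iff σ.injective).2 (D.gsMul_ne hl h1)
  have h4 := gaussSum_mul_gaussSum_eq_card h2
    (he.compMulHom_of_isPrimitive (f := σ.toMonoidHom) σ.injective)
  rw [← star_gaussSum_eq, D.card_Lf (D.dg_pos l) (D.dg_dvd l)] at h4
  have h5 : σ (D.gs l) = gaussSum ((D.gsMul hl).ringHomComp σ)
      (σ.toMonoidHom.compAddChar (gsAdd p K (dg p l))) := by
    rw [D.gs_eq hl, gaussSum, gaussSum]
    simp only [map_sum, map_mul]; rfl
  rw [h5]
  rw [Complex.star_def, Complex.mul_conj'] at h4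
  exact_mod_cast h4

/-- `psi ≡ 1` modulo `M` and `∑ chi = 0` (see BLK/KnorrAb). -/
theorem Dat.gs_red (D : Dat p N K) {M : Ideal AlgInt} (hM : IsPModular p M) {l : K} (hl : l ≠ 0) (h1 : l ≠ 1) : red M (D.gs l) = 0 := by
  have h3 : ∀ a, D.gsMul hl a ∈ Blk.V M := fun a => by
    change (if a = 0 then 0 else D.chi l a) ∈ _
    split_ifs
    · exact zero_mem _
    · exact mem_V_of_isIntegral (IsIntegral.of_pow D.gsq_pos (D.chi_pow hl _ ▸ isIntegral_one))
  have h5 : ∀ a, gsAdd p K (dg p l) a ^ p = 1 := fun a => psi_trc_pow a.2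
  have h6 : ∀ a, gsAdd p K (dg p l) a ∈ Blk.V M := fun a =>
    mem_V_of_isIntegral (IsIntegral.of_pow (Fact.out : p.Prime).pos (h5 a ▸ isIntegral_one))
  have h4 : red M (D.gs l) = red M (∑ a, D.gsMul hl a) := by
    rw [D.gs_eq hl, gaussSum, red_sum _ fun i _ => mul_mem (h3 i) (h6 i),
      red_sum _ fun i _ => h3 i]
    refine Finset.sum_congr rfl fun i _ => ?_
    rw [red_mul (h3 i) (h6 i),
      red_eq_one_of_pow_p_pow hM (ζ := gsAdd p K (dg p l) i) (k := 1) (by rw [pow_one, h5]), mul_one]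
  rw [h4, MulChar.sum_eq_zero_of_ne_one (D.gsMul_ne hl h1), red_zero]

end CL.KA
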