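import Cfsg.Agent.KGV.A.Bas

set_option autoImplicit false
set_option linter.unusedSectionVars false

namespace CL.KA
open Polynomial Matrix CL.VCh CL.Blk Cfsg
open scoped Classical

variable {p N : ℕ} [Fact p.Prime] {K : Type} [Field K] [Fintype K] [Algebra (ZMod p) K]

/-- `charpoly` of `z = y.map _` splits over `K` (`spl`, `d = 1`), so divides `(X^Q - X)^N ∣ (X^Q - X)^Q = X^(Q*Q) - X^Q`; Cayley-Hamilton. -/
theorem Dat.pow_sq (D : Dat p N K) (y : Matrix (Fin N) (Fin N) (ZMod p)) :
    (y.map (algebraMap (ZMod p) K) ^ p ^ D.e) ^ p ^ D.e = y.map (algebraMap (ZMod p) K) ^ p ^ D.e := by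
  have hchar : CharP K p := (Algebra.charP_iff (ZMod p) K p).1 inferInstance
  set z := y.map (algebraMap (ZMod p) K) with hz
  have hmon : z.charpoly.Monic := z.charpoly_monic
  have hdeg : z.charpoly.natDegree = N := by rw [charpoly_natDegree_eq_dim, Fintype.card_fin]
  have hsp : z.charpoly.roots.card = z.charpoly.natDegree := by
    refine D.spl 1 _ one_pos hmon (fun i => ?_) (by rw [hdeg, mul_one])
    rw [hz, charpoly_map, coeff_map, pow_one, ← map_pow, ZMod.pow_card]
  have hprod := prod_multiset_X_sub_C_of_monic_of_roots_card_eq hmon hsp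
  have hdvd : z.charpoly ∣ (X ^ p ^ D.e - X : K[X]) ^ N := by
    have h1 : ((z.charpoly.roots.map fun a => X - C a).prod) ∣
        (z.charpoly.roots.map fun _ => (X ^ p ^ D.e - X : K[X])).prod := by
      refine Multiset.prod_dvd_prod_of_dvd _ _ fun a _ => ?_
      rw [dvd_iff_isRoot]
      simp only [IsRoot.def, eval_sub, eval_pow, eval_X]
      rw [← D.card, FiniteField.pow_card, sub_self]
    rw [hprod, Multiset.map_const', Multiset.prod_replicate, hsp, hdeg] at h1
    exact h1
  have hdvd2 : z.charpoly ∣ (X ^ p ^ D.e - X : K[X]) ^ p ^ D.e := hdvd.trans (pow_dvd_pow _ D.le)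
  rw [sub_pow_char_pow] at hdvd2
  obtain ⟨r, hr⟩ := hdvd2
  have h2 := congrArg (aeval z) hr
  rw [map_mul, aeval_self_charpoly, zero_mul, map_sub, map_pow, map_pow, aeval_X] at h2
  exact sub_eq_zero.1 h2

theorem Dat.pr_idem56 (D : Dat p N K) {ι : Type} [Fintype ι] [DecidableEq ι] (a : K)
    (z : Matrix ι ι K) (hz : (z ^ p ^ D.e) ^ p ^ D.e = z ^ p ^ D.e) :
    D.pr a z * D.pr a z = D.pr a z := by
  have hchar : CharP K p := (Algebra.charP_iff (ZMod p) K p).1 inferInstance
  have hp : 2 ≤ p := (Fact.out : p.Prime).two_le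
  have hQ : 2 ≤ p ^ D.e := hp.trans (Nat.le_self_pow D.e_pos.ne' p)
  have hu : (z ^ p ^ D.e - a • (1 : Matrix ι ι K)) ^ p ^ D.e = z ^ p ^ D.e - a • 1 := by
    have h1 : (X - C a : K[X]) ^ p ^ D.e = X ^ p ^ D.e - C a := by
      rw [sub_pow_char_pow, ← C_pow, ← D.card, FiniteField.pow_card]
    have h2 := congrArg (aeval (z ^ p ^ D.e)) h1
    simp only [map_sub, map_pow, aeval_X, aeval_C, Algebra.algebraMap_eq_smul_one] at h2
    rw [h2, hz]
  unfold Dat.pr
  set u := z ^ p ^ D.e - a • (1 : Matrix ι ι K)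
  obtain ⟨k, hk⟩ : ∃ k, p ^ D.e = k + 2 := ⟨p ^ D.e - 2, by omega⟩
  have h3 : u ^ (p ^ D.e - 1) * u ^ (p ^ D.e - 1) = u ^ (p ^ D.e - 1) := by
    rw [← pow_add]
    have e1 : p ^ D.e - 1 + (p ^ D.e - 1) = p ^ D.e + k := by omega
    have e2 : p ^ D.e - 1 = 1 + k := by omega
    rw [e1, e2, pow_add, hu, pow_add, pow_one]
  rw [sub_mul, mul_sub, mul_sub, h3]
  simp

/-- `u = z^Q - a` has `u^Q = u`, so `pr` is idempotent and commutes with `g, g'`: `(e g + 1 - e)(e g' + 1 - e) = e g g' + 1 - e`; `io_mul`. -/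
theorem Dat.th_mul (D : Dat p N K) {y g g' : Matrix (Fin N) (Fin N) (ZMod p)} (h : y * g = g * y) (h' : y * g' = g' * y) :
    D.th y (g * g') = D.th y g * D.th y g' := by
  unfold Dat.th Dat.thK
  rw [← Finset.prod_mul_distrib]
  refine Finset.prod_congr rfl fun a _ => ?_
  rw [← mul_pow, ← D.io_mul, ← det_mul]
  have he := D.pr_idem56 a _ (D.pow_sq y)
  have hc : Commute (y.map (algebraMap (ZMod p) K)) (g.map (algebraMap (ZMod p) K)) := by
    unfold Commute SemiconjBy
    rw [← Matrix.map_mul, ← Matrix.map_mul, h]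
  have hc2 : Commute (D.pr a (y.map (algebraMap (ZMod p) K))) (g.map (algebraMap (ZMod p) K)) := by
    unfold Dat.pr
    exact (Commute.one_left _).sub_left
      (((hc.pow_left _).sub_left ((Commute.one_left _).smul_left a)).pow_left _)
  rw [Matrix.map_mul]
  set e := D.pr a (y.map (algebraMap (ZMod p) K))
  set G := g.map (algebraMap (ZMod p) K)
  set G' := g'.map (algebraMap (ZMod p) K)
  have h1 : e * G * e = e * G := by rw [mul_assoc, ← hc2.eq, ← mul_assoc, he]
  have h2 : (e * G + (1 - e)) * (e * G' + (1 - e)) = e * (G * G') + (1 - e) := by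
    have : (e * G + (1 - e)) * (e * G' + (1 - e)) =
      (e * G * e) * G' + e * G - e * G * e + e * G' - (e * e) * G' + 1 - e - e + e * e := by
      noncomm_ring
    rw [this, h1, he]; noncomm_ring
  rw [h2]
theorem Dat.th_one (D : Dat p N K) (y : Matrix (Fin N) (Fin N) (ZMod p)) : D.th y 1 = 1 := by
  unfold Dat.th Dat.thK
  refine Finset.prod_eq_one fun a _ => ?_
  rw [Matrix.map_one _ (map_zero _) (map_one _), mul_one, add_sub_cancel, det_one, D.io_one, one_pow]
theorem Dat.thK_conj (D : Dat p N K) {ι : Type} [Fintype ι] [DecidableEq ι] {P P' : Matrix ι ι K} (h : P * P' = 1) (z g : Matrix ι ι K) :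
    D.thK (P * z * P') (P * g * P') = D.thK z g := by
  have h' : P' * P = 1 := mul_eq_one_comm.1 h
  have hpow : ∀ (w : Matrix ι ι K) (n : ℕ), (P * w * P') ^ n = P * w ^ n * P' := by
    intro w n
    induction n with
    | zero => simp [h]
    | succ n ih =>
      rw [pow_succ, ih, pow_succ]
      calc P * w ^ n * P' * (P * w * P') = P * w ^ n * (P' * P) * w * P' := by noncomm_ring
        _ = _ := by rw [h']; noncomm_ring
  unfold Dat.thK
  refine Finset.prod_congr rfl fun a _ => ?_
  have hpr : D.pr a (P * z * P') = P * D.pr a z * P' := by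
    unfold Dat.pr
    have e1 : (P * z * P') ^ p ^ D.e - a • (1 : Matrix ι ι K) = P * (z ^ p ^ D.e - a • 1) * P' := by
      rw [hpow, mul_sub, sub_mul, mul_smul_comm, smul_mul_assoc, mul_one, h]
    rw [e1, hpow, mul_sub, sub_mul, mul_one, h]
  have e2 : P * D.pr a z * P' * (P * g * P') + (1 - P * D.pr a z * P') =
      P * (D.pr a z * g + (1 - D.pr a z)) * P' := by
    calc _ = P * D.pr a z * (P' * P) * g * P' + (P * P' - P * D.pr a z * P') := by
          rw [h]; noncomm_ring
      _ = _ := by rw [h']; noncomm_ring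
  rw [hpr, e2, det_mul, det_mul, mul_right_comm, ← det_mul, h, det_one, one_mul]
theorem Dat.th_conj (D : Dat p N K) {P P' : Matrix (Fin N) (Fin N) (ZMod p)} (h : P * P' = 1) (y g : Matrix (Fin N) (Fin N) (ZMod p)) :
    D.th (P * y * P') (P * g * P') = D.th y g := by
  unfold Dat.th
  simp only [Matrix.map_mul]
  refine D.thK_conj ?_ _ _
  rw [← Matrix.map_mul, h, Matrix.map_one _ (map_zero _) (map_one _)]

end CL.KA
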