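import Cfsg.Agent.KGV.A.Bas
import Cfsg.Agent.KGV.A.Mul
import Cfsg.Agent.KGV.Idem

set_option autoImplicit false
set_option linter.unusedSectionVars false

namespace CL.KA
open Polynomial Matrix CL.VCh CL.Blk Cfsg
open scoped Classical

variable {p N : ℕ} [Fact p.Prime] {K : Type} [Field K] [Fintype K] [Algebra (ZMod p) K]

namespace Str58

theorem fact {L : Type} [Field L] (e : Matrix (Fin N) (Fin N) L) (he : e * e = e) :
    ∃ (m : ℕ) (B : Matrix (Fin N) (Fin m) L) (C : Matrix (Fin m) (Fin N) L), B * C = e ∧ C * B = 1 := by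
  let f := Matrix.toLin' e
  have hf : f ∘ₗ f = f := by rw [← Matrix.toLin'_mul, he]
  let b := Module.finBasis L (LinearMap.range f)
  let s := Pi.basisFun L (Fin N)
  refine ⟨_, LinearMap.toMatrix b s (LinearMap.range f).subtype,
    LinearMap.toMatrix s b f.rangeRestrict, ?_, ?_⟩
  · rw [← LinearMap.toMatrix_comp]
    have : (LinearMap.range f).subtype ∘ₗ f.rangeRestrict = f := rfl
    rw [this]
    exact LinearMap.toMatrix'_toLin' e
  · rw [← LinearMap.toMatrix_comp]
    have : f.rangeRestrict ∘ₗ (LinearMap.range f).subtype = LinearMap.id := by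
      ext ⟨_, x, rfl⟩ : 2
      exact LinearMap.congr_fun hf x
    rw [this, LinearMap.toMatrix_id]

theorem pw_mod (a : K) (n : ℕ) : a ^ p ^ (n % dg p a) = a ^ p ^ n := by
  conv_rhs => rw [← Nat.div_add_mod n (dg p a), pow_add, pow_mul a,
    (dg_dvd_iff a _).1 (dvd_mul_right _ _)]

theorem dist (D : Dat p N K) {a a' : K} (ha : a ∈ D.R) (ha' : a' ∈ D.R) {i i' : ℕ} (hi : i < dg p a)
    (hi' : i' < dg p a') (h : a ^ p ^ i = a' ^ p ^ i') : a = a' ∧ i = i' := by
  have := (Algebra.charP_iff (ZMod p) K p).1 inferInstance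
  have h1 : a ^ p ^ (i + (dg p a' - i')) = a' := by
    rw [pow_add, pow_mul, h, ← pow_mul, ← pow_add, Nat.add_sub_cancel' hi'.le]
    exact (dg_dvd_iff a' _).1 dvd_rfl
  have h2 : a' = a := h1.symm.trans (D.R_uq a ha _ (by rw [h1]; exact ha'))
  subst h2
  refine ⟨rfl, ?_⟩
  have key : ∀ i i' : ℕ, i ≤ i' → i' < dg p a' → a' ^ p ^ i = a' ^ p ^ i' → i = i' := by
    intro i i' hle hlt h
    obtain ⟨j, rfl⟩ := Nat.exists_eq_add_of_le hle
    have h3 : a' ^ p ^ j = a' := by
      apply (iterateFrobenius K p i).injective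
      rw [iterateFrobenius_def, iterateFrobenius_def, ← pow_mul, ← pow_add, add_comm, h]
    have h4 := Nat.eq_zero_of_dvd_of_lt ((dg_dvd_iff a' j).2 h3) (by omega)
    omega
  rcases le_total i i' with h5 | h5
  · exact key i i' h5 hi' h
  · exact (key i' i h5 hi h.symm).symm

theorem sum_orb (D : Dat p N K) {M : Type} [AddCommMonoid M] (E : K → M) (h0 : E 0 = 0) :
    ∑ a : D.R, ∑ i : Fin (dg p (a : K)), E ((a : K) ^ p ^ (i : ℕ)) = ∑ c, E c := by
  rw [← Finset.sum_erase Finset.univ h0, Finset.sum_sigma']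
  refine Finset.sum_bij (fun s _ => (s.1 : K) ^ p ^ (s.2 : ℕ)) (fun s _ => ?_) ?_ ?_ (fun _ _ => rfl)
  · exact Finset.mem_erase.2 ⟨pow_ne_zero _ (D.R_ne _ s.1.2), Finset.mem_univ _⟩
  · rintro ⟨a, i⟩ _ ⟨a', i'⟩ _ h
    obtain ⟨h1, h2⟩ := dist D a.2 a'.2 i.2 i'.2 h
    obtain rfl : a = a' := Subtype.ext h1
    obtain rfl : i = i' := Fin.ext h2
    rfl
  · intro c hc
    obtain ⟨i, hi⟩ := D.R_ex c (Finset.mem_erase.1 hc).1
    refine ⟨⟨⟨_, hi⟩, ⟨(D.e * i - i) % dg p (c ^ p ^ i), Nat.mod_lt _ (D.dg_pos _)⟩⟩, by simp, ?_⟩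
    show (c ^ p ^ i) ^ p ^ ((D.e * i - i) % dg p (c ^ p ^ i)) = c
    rw [pw_mod, ← pow_mul, ← pow_add, Nat.add_sub_cancel' (Nat.le_mul_of_pos_left i D.e_pos)]
    exact (dg_dvd_iff c _).1 ((D.dg_dvd c).mul_right i)

end Str58

open Str58 CL.KGV.IdM in
/-- `G = g.map _` is diagonalisable over `K`; rank factorisations of the eigenprojections over the subfields. -/
theorem Dat.exists_str (D : Dat p N K) {g : Matrix (Fin N) (Fin N) (ZMod p)} {k : ℕ} (hk : ¬ p ∣ k) (hg : g ^ k = 1) :
    Nonempty (D.Str g) := by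
  have hK := (Algebra.charP_iff (ZMod p) K p).1 inferInstance
  have hp : p.Prime := Fact.out
  have hk0 : k ≠ 0 := by rintro rfl; exact hk (dvd_zero p)
  let α := algebraMap (ZMod p) K
  obtain ⟨G, hG⟩ : ∃ G, G = g.map α := ⟨_, rfl⟩
  have hGk : G ^ k = 1 := by
    rw [hG, ← RingHom.mapMatrix_apply, ← map_pow, hg, map_one]
  have hu : IsUnit G := IsUnit.of_pow_eq_one hGk hk0
  have hQ : G ^ Fintype.card K = G := by
    obtain ⟨u, rfl⟩ := hu
    have h1 := D.pow_sq g
    rw [← hG] at h1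
    have hq : 1 ≤ p ^ D.e := Nat.one_le_pow _ _ hp.pos
    have h2 : (u ^ (p ^ D.e - 1)) ^ p ^ D.e = 1 := by
      have h3 : (u ^ p ^ D.e) ^ p ^ D.e = u ^ p ^ D.e := Units.ext (by simpa using h1)
      apply mul_right_cancel (b := u ^ p ^ D.e)
      rw [one_mul, ← ((Commute.refl u).pow_left _).mul_pow, ← pow_succ, Nat.sub_add_cancel hq, h3]
    have h4 : (u ^ (p ^ D.e - 1)) ^ k = 1 := by
      rw [← pow_mul, mul_comm, pow_mul, show u ^ k = 1 from Units.ext (by simpa using hGk), one_pow]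
    have h5 : u ^ (p ^ D.e - 1) = 1 :=
      (pow_eq_one_iff_of_coprime ((hp.coprime_iff_not_dvd.2 hk).pow_left D.e)).1 ⟨h2, h4⟩
    rw [D.card, ← Units.val_pow_eq_pow_val, ← Nat.sub_add_cancel hq, pow_succ, h5, one_mul]
  let E : K → Matrix (Fin N) (Fin N) K := fun c => CL.KGV.IdM.pr c G
  have hE : CompleteOrthogonalIdempotents E := pr_coi hQ
  have hGE : ∀ c, G * E c = c • E c := fun c => mul_pr hQ c
  have hEG : ∀ c, E c * G = c • E c := fun c =>
    ((comm_pr (Commute.refl G) c).eq.symm).trans (hGE c)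
  have hE0 : E 0 = 0 := by
    have := hGE 0
    rw [zero_smul] at this
    exact hu.mul_right_eq_zero.1 this
  have hGF : ∀ i, G.map (iterateFrobenius K p i) = G := fun i => by
    rw [hG, Matrix.map_map]
    congr 1
    exact congrArg DFunLike.coe (RingHom.ext_zmod ((iterateFrobenius K p i).comp α) α)
  have hEF : ∀ c i, (E c).map (iterateFrobenius K p i) = E (c ^ p ^ i) := fun c i => by
    show (CL.KGV.IdM.pr c G).map _ = CL.KGV.IdM.pr _ G
    rw [pr_map, hGF, iterateFrobenius_def]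
  have hmem : ∀ (a : K) r s, E a r s ∈ Lf p K (dg p a) := fun a r s => by
    have := congrFun (congrFun (hEF a (dg p a)) r) s
    rw [(dg_dvd_iff a _).1 dvd_rfl, Matrix.map_apply, iterateFrobenius_def] at this
    exact this
  let e : ∀ a : D.R, Matrix (Fin N) (Fin N) (Lf p K (dg p (a : K))) := fun a r s => ⟨E a r s, hmem a r s⟩
  have he : ∀ a : D.R, (e a).map (Lf p K (dg p (a : K))).subtype = E a := fun a => rfl
  have hee : ∀ a, e a * e a = e a := fun a => by
    apply Matrix.map_injective (Lf p K (dg p (a : K))).subtype.injective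
    show (e a * e a).map _ = (e a).map _
    rw [Matrix.map_mul, he]
    exact hE.idem a
  choose m B C hBC hCB using fun a => fact (e a) (hee a)
  let φ : ∀ (a : D.R) (i : ℕ), Lf p K (dg p (a : K)) →+* K := fun a i =>
    (iterateFrobenius K p i).comp (Lf p K (dg p (a : K))).subtype
  have hφ : ∀ a i x, φ a i x = (x : K) ^ p ^ i := fun a i x => iterateFrobenius_def _ _ _
  let ιL : ∀ a : D.R, ZMod p →+* Lf p K (dg p (a : K)) := fun a => ZMod.castHom (dvd_refl p) _
  have hι : ∀ a i (y : Matrix (Fin N) (Fin N) (ZMod p)), (y.map (ιL a)).map (φ a i) = y.map α := fun a i y => by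
    rw [Matrix.map_map]
    congr 1
    exact congrArg DFunLike.coe (RingHom.ext_zmod ((φ a i).comp (ιL a)) α)
  let Bf := fun (a : D.R) (i : ℕ) => (B a).map (φ a i)
  let Cf := fun (a : D.R) (i : ℕ) => (C a).map (φ a i)
  have h1 : ∀ a i, Bf a i * Cf a i = E ((a : K) ^ p ^ i) := fun a i => by
    rw [← Matrix.map_mul, hBC, ← hEF, ← he, Matrix.map_map]; rfl
  have h2 : ∀ a i, Cf a i * Bf a i = 1 := fun a i => by
    rw [← Matrix.map_mul, hCB, Matrix.map_one _ (map_zero _) (map_one _)]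
  have h3 : ∀ (a : D.R) i, E ((a : K) ^ p ^ i) * Bf a i = Bf a i := fun a i => by
    rw [← h1, Matrix.mul_assoc, h2, Matrix.mul_one]
  have h4 : ∀ a i, Cf a i * E ((a : K) ^ p ^ i) = Cf a i := fun a i => by
    rw [← h1, ← Matrix.mul_assoc, h2, Matrix.one_mul]
  have h5 : ∀ a i, G * Bf a i = ((a : K) ^ p ^ i) • Bf a i := fun a i => by
    rw [← h3, ← Matrix.mul_assoc, hGE, Matrix.smul_mul]
  have h6 : ∀ a i, Cf a i * G = ((a : K) ^ p ^ i) • Cf a i := fun a i => by
    rw [← h4, Matrix.mul_assoc, hEG, Matrix.mul_smul]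
  have h7 : ∀ (W : Matrix (Fin N) (Fin N) K), W * G = G * W → ∀ (a a' : D.R) (i i' : ℕ),
      (a : K) ^ p ^ i ≠ (a' : K) ^ p ^ i' → Cf a i * W * Bf a' i' = 0 := fun W hW a a' i i' hne => by
    have h : ((a : K) ^ p ^ i - (a' : K) ^ p ^ i') • (Cf a i * W * Bf a' i') = 0 := by
      have e1 : ((a : K) ^ p ^ i) • (Cf a i * W * Bf a' i') = Cf a i * G * W * Bf a' i' := by
        rw [h6, Matrix.smul_mul, Matrix.smul_mul]
      have e2 : ((a' : K) ^ p ^ i') • (Cf a i * W * Bf a' i') = Cf a i * W * (G * Bf a' i') := by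
        rw [h5, Matrix.mul_smul]
      rw [sub_smul, e1, e2, Matrix.mul_assoc _ G, ← hW]
      simp only [Matrix.mul_assoc, sub_self]
    exact (smul_eq_zero.1 h).resolve_left (sub_ne_zero.2 hne)
  let S := Σ a : D.R, Fin (m a) × Fin (dg p (a : K))
  let B' : Matrix (Fin N) S K := fun r s => Bf s.1 s.2.2 r s.2.1
  let C' : Matrix S (Fin N) K := fun s r => Cf s.1 s.2.2 s.2.1 r
  have hent : ∀ (W : Matrix (Fin N) (Fin N) K) (s t : S),
      (C' * W * B') s t = (Cf s.1 s.2.2 * W * Bf t.1 t.2.2) s.2.1 t.2.1 := fun W s t => rfl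
  have hblk : ∀ (W : Matrix (Fin N) (Fin N) K), W * G = G * W →
      C' * W * B' = blockDiagonal' fun a : D.R => blockDiagonal fun i : Fin (dg p (a : K)) =>
        Cf a i * W * Bf a i := fun W hW => by
    ext ⟨a, j, i⟩ ⟨a', j', i'⟩
    rw [hent]
    by_cases ha : a = a'
    · subst ha
      rw [blockDiagonal'_apply_eq]
      by_cases hi : i = i'
      · subst hi
        rw [blockDiagonal_apply_eq]
      · rw [blockDiagonal_apply_ne _ _ _ hi, h7 W hW a a i i'
          (fun h => hi (Fin.ext (dist D a.2 a.2 i.2 i'.2 h).2))]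
        rfl
    · rw [blockDiagonal'_apply_ne _ _ _ ha, h7 W hW a a' i i'
        (fun h => ha (Subtype.ext (dist D a.2 a'.2 i.2 i'.2 h).1))]
      rfl
  have hCB' : C' * B' = 1 := by
    have := hblk 1 (by simp)
    simp only [Matrix.mul_one, h2] at this
    rw [this]
    have h8 : (fun a : D.R => blockDiagonal fun _ : Fin (dg p (a : K)) =>
        (1 : Matrix (Fin (m a)) (Fin (m a)) K)) = 1 := funext fun a => blockDiagonal_one
    rw [h8, blockDiagonal'_one]
  have hBC' : B' * C' = 1 := by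
    rw [← hE.complete, ← sum_orb D E hE0]
    ext r s
    simp only [Matrix.mul_apply, Matrix.sum_apply, ← h1, S]
    rw [Fintype.sum_sigma]
    exact Finset.sum_congr rfl fun a _ => Fintype.sum_prod_type_right _
  let ε : Fin N ≃ S := Matrix.indexEquivOfInv hBC' hCB'
  have hsub : ∀ W : Matrix (Fin N) (Fin N) K,
      C'.submatrix ε id * W * B'.submatrix id ε = (C' * W * B').submatrix ε ε := fun W => rfl
  let Ψ : {y : Matrix (Fin N) (Fin N) (ZMod p) // y * g = g * y} →
      ∀ a : D.R, Matrix (Fin (m a)) (Fin (m a)) (Lf p K (dg p (a : K))) :=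
    fun y a => C a * y.1.map (ιL a) * B a
  have hΨ0 : ∀ y a i, (Ψ y a).map (φ a i) = Cf a i * y.1.map α * Bf a i := fun y a i => by
    rw [Matrix.map_mul, Matrix.map_mul, hι]
  have hcomm : ∀ y : {y : Matrix (Fin N) (Fin N) (ZMod p) // y * g = g * y},
      y.1.map α * G = G * y.1.map α := fun y => by
    rw [hG, ← Matrix.map_mul, y.2, Matrix.map_mul]
  have hbij : Function.Bijective Ψ := by
    constructor
    · intro y y' h
      have h8 : C' * y.1.map α * B' = C' * y'.1.map α * B' := by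
        rw [hblk _ (hcomm y), hblk _ (hcomm y')]
        simp only [← hΨ0, h]
      have h9 : ∀ W : Matrix (Fin N) (Fin N) K, B' * (C' * W * B') * C' = W := fun W => by
        simp only [Matrix.mul_assoc]
        rw [hBC', Matrix.mul_one, ← Matrix.mul_assoc, hBC', Matrix.one_mul]
      exact Subtype.ext (Matrix.map_injective α.injective (by
        show y.1.map α = y'.1.map α
        rw [← h9 (y.1.map α), h8, h9]))
    · intro z
      choose t ht using fun (a : D.R) r s => trc_mem (p := p) ((B a * z a * C a) r s).2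
      let y : Matrix (Fin N) (Fin N) (ZMod p) := fun r s => ∑ a, t a r s
      have hy : y.map α = ∑ a : D.R, ∑ i : Fin (dg p (a : K)), Bf a i * (z a).map (φ a i) * Cf a i := by
        ext r s
        show α (∑ a, t a r s) = _
        simp only [map_sum, Matrix.sum_apply]
        refine Finset.sum_congr rfl fun a _ => ?_
        rw [ht, trc, Finset.sum_range]
        refine Finset.sum_congr rfl fun i _ => ?_
        rw [← Matrix.map_mul, ← Matrix.map_mul, Matrix.map_apply, hφ]
      have hyg : y * g = g * y := by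
        apply Matrix.map_injective α.injective
        show (y * g).map α = (g * y).map α
        rw [Matrix.map_mul, Matrix.map_mul, ← hG, hy]
        simp only [Finset.sum_mul, Finset.mul_sum]
        refine Finset.sum_congr rfl fun a _ => Finset.sum_congr rfl fun i _ => ?_
        rw [Matrix.mul_assoc, h6, ← Matrix.mul_assoc G, ← Matrix.mul_assoc G, h5, Matrix.mul_smul,
          Matrix.smul_mul, Matrix.smul_mul]
      refine ⟨⟨y, hyg⟩, funext fun a => ?_⟩
      apply Matrix.map_injective (φ a 0).injective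
      show (Ψ ⟨y, hyg⟩ a).map (φ a 0) = (z a).map (φ a 0)
      rw [hΨ0, hy]
      have h8 : ∀ (a' : D.R) (i : ℕ), (a : K) ^ p ^ 0 ≠ (a' : K) ^ p ^ i →
          Cf a 0 * (Bf a' i * (z a').map (φ a' i) * Cf a' i) * Bf a 0 = 0 := fun a' i hne => by
        have := h7 1 (by simp) a a' 0 i hne
        rw [Matrix.mul_one] at this
        rw [← Matrix.mul_assoc, ← Matrix.mul_assoc, this]
        simp
      simp only [Matrix.mul_sum, Matrix.sum_mul]
      rw [Finset.sum_eq_single a, Finset.sum_eq_single ⟨0, D.dg_pos _⟩]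
      · show Cf a 0 * (Bf a 0 * (z a).map (φ a 0) * Cf a 0) * Bf a 0 = _
        rw [← Matrix.mul_assoc, ← Matrix.mul_assoc, h2, Matrix.one_mul, Matrix.mul_assoc, h2,
          Matrix.mul_one]
      · intro i _ hi
        exact h8 a i fun h => hi (Fin.ext (dist D a.2 a.2 (D.dg_pos _) i.2 h).2.symm)
      · simp
      · intro a' _ ha
        exact Finset.sum_eq_zero fun i _ => h8 a' i fun h =>
          ha (Subtype.ext (dist D a.2 a'.2 (D.dg_pos _) i.2 h).1.symm)
      · simp
  refine ⟨⟨m, ε, C'.submatrix ε id, B'.submatrix id ε, ?_, Equiv.ofBijective Ψ hbij, fun y => ?_, ?_⟩⟩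
  · have := hsub 1
    rw [Matrix.mul_one, Matrix.mul_one, hCB', Matrix.submatrix_one_equiv] at this
    exact this
  · rw [hsub, hblk _ (hcomm y)]
    simp only [← hΨ0]
    rfl
  · rw [← hG, hsub]
    have h8 : G * B' = B' * diagonal fun s : S => (s.1 : K) ^ p ^ (s.2.2 : ℕ) := by
      ext r s
      rw [Matrix.mul_diagonal, mul_comm]
      exact congrFun (congrFun (h5 s.1 s.2.2) r) s.2.1
    rw [Matrix.mul_assoc, h8, ← Matrix.mul_assoc, hCB', Matrix.one_mul, Matrix.submatrix_diagonal_equiv]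
    rfl

end CL.KA
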