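import Cfsg.Agent.KGV.A.Tau

set_option autoImplicit false
set_option linter.unusedSectionVars false

namespace CL.KA
open Polynomial Matrix CL.VCh CL.Blk Cfsg
open scoped Classical

variable {p N : ℕ} [Fact p.Prime] {K : Type} [Field K] [Fintype K] [Algebra (ZMod p) K]

private theorem van_mon_coeff {F : Type} [Field F] {k : ℕ} (c : Fin k → F) (j : Fin k) :
    (mon c).coeff (j : ℕ) = c j := by
  unfold mon
  rw [coeff_add, coeff_X_pow, if_neg (ne_of_lt j.2), zero_add, finsetSum_coeff]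
  simp only [coeff_C_mul_X_pow]
  rw [Finset.sum_eq_single j]
  · simp
  · intro b _ hb
    rw [if_neg]
    intro h
    exact hb (Fin.ext h.symm)
  · simp

private theorem van_mon_deg {F : Type} [Field F] {k : ℕ} (c : Fin k → F) :
    (mon c).natDegree = k := by
  unfold mon
  have h : (∑ i : Fin k, C (c i) * X ^ (i : ℕ)).degree < (X ^ k : F[X]).degree := by
    rw [degree_X_pow]
    exact degree_sum_fin_lt c
  rw [natDegree_add_eq_left_of_degree_lt h, natDegree_X_pow]

private theorem van_mon_next {F : Type} [Field F] {k : ℕ} (hk : 0 < k) (c : Fin k → F) :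
    (mon c).nextCoeff = c ⟨k - 1, by omega⟩ := by
  rw [nextCoeff, van_mon_deg, if_neg (by omega)]
  exact van_mon_coeff c ⟨k - 1, by omega⟩

private theorem van_mon_one {F : Type} [Field F] (a : F) :
    mon (fun _ : Fin 1 => -a) = X - C a := by
  unfold mon
  simp [sub_eq_add_neg]

private theorem van_phi0_lin (d : ℕ) (a : Lf p K d) :
    phi0 d (X - C a) = if a = 0 then 0 else psi p (trc p d (a : K)) := by
  unfold phi0
  rw [nextCoeff_X_sub_C]
  simp

theorem phi0_one (d : ℕ) : phi0 d (1 : (Lf p K d)[X]) = 1 := by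
  unfold phi0
  have h : (1 : (Lf p K d)[X]).nextCoeff = 0 := by
    rw [← C_1, nextCoeff_C_eq_zero]
  rw [h, if_neg (by simp)]
  simpa using psi_trc_zero (p := p) (K := K) d

theorem phi0_mul (d : ℕ) (P Q : (Lf p K d)[X]) (hP : P.Monic) (hQ : Q.Monic) : phi0 d (P * Q) = phi0 d P * phi0 d Q := by
  unfold phi0
  rw [mul_coeff_zero, hP.nextCoeff_mul hQ]
  by_cases h1 : P.coeff 0 = 0
  · simp [h1]
  by_cases h2 : Q.coeff 0 = 0
  · simp [h2]
  rw [if_neg (mul_ne_zero h1 h2), if_neg h1, if_neg h2,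
    ← psi_trc_add (neg_mem P.nextCoeff.2) (neg_mem Q.nextCoeff.2)]
  congr 2
  push_cast
  ring

theorem Dat.phi_one (D : Dat p N K) (l : K) : D.phi l 1 = 1 := by
  unfold Dat.phi
  rw [phi0_one, Polynomial.map_one, roots_one]
  simp

theorem Dat.phi_mul (D : Dat p N K) (l : K) (P Q : (Lf p K (dg p l))[X]) (hP : P.Monic) (hQ : Q.Monic) :
    D.phi l (P * Q) = D.phi l P * D.phi l Q := by
  unfold Dat.phi
  rw [phi0_mul _ _ _ hP hQ, Polynomial.map_mul,
    roots_mul (mul_ne_zero (hP.map _).ne_zero (hQ.map _).ne_zero), Multiset.map_add, Multiset.prod_add]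
  ring

/-- translate the coefficient `c (k-1)` (= `nextCoeff`, not `coeff 0`) by `-x`, `x` from `psi_ne`: the sum is multiplied by `psi (trc x) ≠ 1`. -/
theorem Dat.van (D : Dat p N K) {d k : ℕ} (h0 : 0 < d) (hd : d ∣ D.e) (hk : 2 ≤ k) (f : Lf p K d → ℂ) :
    ∑ c : Fin k → Lf p K d, phi0 d (mon c) * f ((mon c).coeff 0) = 0 := by
  obtain ⟨x, hx, hne⟩ := D.psi_ne h0 hd
  set j : Fin k := ⟨k - 1, by omega⟩ with hj
  set z : Fin k := ⟨0, by omega⟩ with hz
  have hzj : z ≠ j := by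
    intro h
    have := congrArg Fin.val h
    simp [hz, hj] at this
    omega
  set t : Fin k → Lf p K d := Pi.single j (-(⟨x, hx⟩ : Lf p K d)) with ht
  have hc0 : ∀ c : Fin k → Lf p K d, (mon c).coeff 0 = c z := fun c => van_mon_coeff c z
  have hnx : ∀ c : Fin k → Lf p K d, (mon c).nextCoeff = c j := fun c => van_mon_next (by omega) c
  have key : ∀ c : Fin k → Lf p K d, phi0 d (mon (c + t)) * f ((mon (c + t)).coeff 0) =
      psi p (trc p d x) * (phi0 d (mon c) * f ((mon c).coeff 0)) := by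
    intro c
    have e0 : (c + t) z = c z := by simp [ht, Pi.single_eq_of_ne hzj]
    have e1 : (((c + t) j : Lf p K d) : K) = (c j : K) - x := by simp [ht, sub_eq_add_neg]
    unfold phi0
    rw [hc0, hc0, hnx, hnx, e0, e1]
    by_cases h : c z = 0
    · simp [h]
    rw [if_neg h, if_neg h, ← mul_assoc, ← psi_trc_add hx (neg_mem (c j).2)]
    congr 3
    ring
  have h1 := Equiv.sum_comp (Equiv.addRight t)
    (fun c : Fin k → Lf p K d => phi0 d (mon c) * f ((mon c).coeff 0))
  simp only [Equiv.coe_addRight, key, ← Finset.mul_sum] at h1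
  have h2 : (psi p (trc p d x) - 1) * ∑ c : Fin k → Lf p K d, phi0 d (mon c) * f ((mon c).coeff 0) = 0 := by
    rw [sub_mul, h1, one_mul, sub_self]
  exact (mul_eq_zero.1 h2).resolve_left (sub_ne_zero.2 hne)

theorem Dat.van_phi (D : Dat p N K) {l : K} (hl : l ≠ 0) {k : ℕ} (h2 : 2 ≤ k) (hk : k * dg p l ≤ N) :
    ∑ c : Fin k → Lf p K (dg p l), D.phi l (mon c) = 0 := by
  rw [D.sum_phi hl hk]
  exact D.van (D.dg_pos l) (D.dg_dvd l) h2 fun a => D.chi l ((-1) ^ k * (a : K))

theorem Dat.one_phi0 (D : Dat p N K) {d : ℕ} (h0 : 0 < d) (hd : d ∣ D.e) : ∑ a : Lf p K d, phi0 d (X - C a) = -1 := by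
  obtain ⟨x, hx, hne⟩ := D.psi_ne h0 hd
  have h1 := Equiv.sum_comp (Equiv.addLeft (⟨x, hx⟩ : Lf p K d))
    (fun a : Lf p K d => psi p (trc p d (a : K)))
  have key : ∀ a : Lf p K d, psi p (trc p d (((⟨x, hx⟩ : Lf p K d) + a : Lf p K d) : K)) =
      psi p (trc p d x) * psi p (trc p d (a : K)) := fun a => psi_trc_add hx a.2
  simp only [Equiv.coe_addLeft, key, ← Finset.mul_sum] at h1
  have h2 : (psi p (trc p d x) - 1) * ∑ a : Lf p K d, psi p (trc p d (a : K)) = 0 := by
    rw [sub_mul, h1, one_mul, sub_self]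
  have h3 := (mul_eq_zero.1 h2).resolve_left (sub_ne_zero.2 hne)
  have h4 : ∀ a : Lf p K d, phi0 d (X - C a) = psi p (trc p d (a : K)) - if a = 0 then 1 else 0 := by
    intro a
    rw [van_phi0_lin]
    by_cases h : a = 0
    · subst h
      simp [psi_trc_zero]
    · simp [h]
  simp only [h4, Finset.sum_sub_distrib, h3]
  simp

/-- `sum_phi` with `k = 1` (`mon ![-a] = X - C a`). -/
theorem Dat.one_phi (D : Dat p N K) {l : K} (hl : l ≠ 0) (h : dg p l ≤ N) : ∑ a : Lf p K (dg p l), D.phi l (X - C a) = D.gs l := by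
  have h1 := D.sum_phi hl (k := 1) (by omega)
  let e : Lf p K (dg p l) ≃ (Fin 1 → Lf p K (dg p l)) :=
    (Equiv.neg _).trans (Equiv.funUnique (Fin 1) _).symm
  have he : ∀ a, mon (e a) = X - C a := fun a => van_mon_one a
  rw [← Equiv.sum_comp e, ← Equiv.sum_comp e] at h1
  simp only [he] at h1
  rw [h1]
  unfold Dat.gs
  refine Finset.sum_congr rfl fun a _ => ?_
  rw [van_phi0_lin]
  by_cases ha : a = 0
  · simp [ha]
  · simp [ha]

end CL.KA
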