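import Cfsg.Agent.KGV.A.Mul
import Cfsg.Agent.BLK.KG.Mono

set_option autoImplicit false
set_option linter.unusedSectionVars false

namespace CL.KA
open Polynomial Matrix CL.VCh CL.Blk Cfsg
open scoped Classical

variable {p N : ℕ} [Fact p.Prime] {K : Type} [Field K] [Fintype K] [Algebra (ZMod p) K]

/-- conjugation action on matrices through a representation -/
@[reducible] def vcAct {H : Type*} [Group H] (ρ : H →* Matrix (Fin N) (Fin N) (ZMod p)) :
    MulAction H (Matrix (Fin N) (Fin N) (ZMod p)) where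
  smul g y := ρ g * y * ρ g⁻¹
  one_smul y := by
    show ρ 1 * y * ρ 1⁻¹ = y
    rw [inv_one, map_one, one_mul, mul_one]
  mul_smul a b y := by
    show ρ (a * b) * y * ρ (a * b)⁻¹ = ρ a * (ρ b * y * ρ b⁻¹) * ρ a⁻¹
    rw [_root_.mul_inv_rev, map_mul, map_mul]
    simp only [mul_assoc]

theorem vc_inv {H : Type*} [Group H] (ρ : H →* Matrix (Fin N) (Fin N) (ZMod p)) (g : H) :
    ρ g * ρ g⁻¹ = 1 := by rw [← map_mul, mul_inv_cancel, map_one]

theorem vc_inv' {H : Type*} [Group H] (ρ : H →* Matrix (Fin N) (Fin N) (ZMod p)) (g : H) :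
    ρ g⁻¹ * ρ g = 1 := by rw [← map_mul, inv_mul_cancel, map_one]

theorem vc_fix {H : Type*} [Group H] (ρ : H →* Matrix (Fin N) (Fin N) (ZMod p)) (g : H)
    (y : Matrix (Fin N) (Fin N) (ZMod p)) : ρ g * y * ρ g⁻¹ = y ↔ y * ρ g = ρ g * y := by
  constructor
  · intro h
    calc y * ρ g = ρ g * y * ρ g⁻¹ * ρ g := by rw [h]
      _ = ρ g * y := by rw [mul_assoc, vc_inv', mul_one]
  · intro h
    rw [← h, mul_assoc, vc_inv, mul_one]

theorem vc_wt_int (y : Matrix (Fin N) (Fin N) (ZMod p)) : IsIntegral ℤ (wt y) := by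
  unfold wt
  split_ifs
  · exact isIntegral_zero
  · refine IsIntegral.of_pow (Fact.out : p.Prime).pos ?_
    rw [← AddChar.map_nsmul_eq_pow, nsmul_eq_mul, ZMod.natCast_self, zero_mul, AddChar.map_zero_eq_one]
    exact isIntegral_one

theorem vc_wt_conj {P P' : Matrix (Fin N) (Fin N) (ZMod p)} (h : P * P' = 1)
    (y : Matrix (Fin N) (Fin N) (ZMod p)) : wt (P * y * P') = wt y := by
  have h' : P' * P = 1 := mul_eq_one_comm.1 h
  have e1 : (P * y * P').det = y.det := by
    rw [det_mul, mul_comm, det_mul, ← mul_assoc, ← det_mul, h', det_one, one_mul]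
  have e2 : (P * y * P').trace = y.trace := by
    rw [trace_mul_comm, ← mul_assoc, h', one_mul]
  unfold wt
  rw [e1, e2]

/-- monomial orbit sums (h91 `BLK/KG/Div`: mono) for the conjugation action of `H` on matrices through `ρ`; `wt` is integral and invariant. -/
theorem Dat.Fs_mem (D : Dat p N K) {H : Type*} [Group H] [Finite H] (ρ : H →* Matrix (Fin N) (Fin N) (ZMod p)) :
    (fun h => D.Fs (ρ h)) ∈ VC H := by
  letI := vcAct ρ
  have hs : ∀ (g : H) (y : Matrix (Fin N) (Fin N) (ZMod p)), g • y = ρ g * y * ρ g⁻¹ := fun _ _ => rfl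
  have := CL.KG.mono (H := H) (Y := Matrix (Fin N) (Fin N) (ZMod p)) wt vc_wt_int
    (fun g y => by rw [hs]; exact vc_wt_conj (vc_inv ρ g) y) (fun y g => D.th y (ρ g))
    (fun y a b ha hb => by
      rw [hs, vc_fix] at ha hb
      show D.th y (ρ (a * b)) = _
      rw [map_mul, D.th_mul ha hb])
    (fun y => by show D.th y (ρ 1) = 1; rw [map_one, D.th_one])
    (fun y g a _ => by
      show D.th (g • y) (ρ (g * a * g⁻¹)) = D.th y (ρ a)
      rw [hs, map_mul, map_mul, D.th_conj (vc_inv ρ g)])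
  convert this using 1
  funext g
  unfold Dat.Fs
  refine Finset.sum_congr rfl fun y _ => ?_
  rw [hs]
  by_cases h : y * ρ g = ρ g * y
  · rw [if_pos h, if_pos ((vc_fix ρ g y).2 h)]
  · rw [if_neg h, if_neg fun e => h ((vc_fix ρ g y).1 e)]
theorem Ss_mem {H : Type*} [Group H] [Finite H] (ρ : H →* Matrix (Fin N) (Fin N) (ZMod p)) :
    (fun h => Ss (ρ h)) ∈ VC H := by
  letI := vcAct ρ
  have hs : ∀ (g : H) (y : Matrix (Fin N) (Fin N) (ZMod p)), g • y = ρ g * y * ρ g⁻¹ := fun _ _ => rfl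
  have := CL.KG.mono (H := H) (Y := Matrix (Fin N) (Fin N) (ZMod p)) wt vc_wt_int
    (fun g y => by rw [hs]; exact vc_wt_conj (vc_inv ρ g) y) (fun _ _ => 1)
    (fun y a b _ _ => (mul_one _).symm) (fun y => rfl) (fun y g a _ => rfl)
  convert this using 1
  funext g
  unfold Ss
  refine Finset.sum_congr rfl fun y _ => ?_
  rw [hs, mul_one]
  by_cases h : y * ρ g = ρ g * y
  · rw [if_pos h, if_pos ((vc_fix ρ g y).2 h)]
  · rw [if_neg h, if_neg fun e => h ((vc_fix ρ g y).1 e)]

end CL.KA
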