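import Cfsg.Agent.KGV.A.Ex
import Cfsg.Agent.KGV.A.Vc
import Cfsg.Agent.KGV.A.Str
import Cfsg.Agent.KGV.A.Ev
import Cfsg.Agent.KGV.A.Am
import Cfsg.Agent.KGV.A.Van
import Cfsg.Agent.KGV.A.Gs
import Cfsg.Agent.KGV.A.Cnt
import Cfsg.Agent.KGV.Glue

/-! The good class function exists for every coprime module. -/

set_option autoImplicit false
set_option linter.unusedSectionVars false

namespace CL.KA
open Polynomial Matrix CL.VCh CL.Blk Cfsg CL.RVec
open scoped Classical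

variable {p N : ℕ} [Fact p.Prime] {K : Type} [Field K] [Fintype K] [Algebra (ZMod p) K]

theorem Dat.Str.Ss_val (D : Dat p N K) {g : Matrix (Fin N) (Fin N) (ZMod p)} (T : D.Str g) :
    Ss g = ∏ a : D.R, ((p : ℂ) ^ dg p (a : K)) ^ (T.m a * (T.m a - 1) / 2) * (-1) ^ T.m a := by
  rw [Dat.Str.Ss_eq D T]
  refine Finset.prod_congr rfl fun a _ => ?_
  rw [am_sum (phi0 _) (phi0_one _) (phi0_mul _) _ fun k hk _ => by
      simpa using D.van (D.dg_pos a) (D.dg_dvd a) hk fun _ => 1,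
    D.card_Lf (D.dg_pos a) (D.dg_dvd a), D.one_phi0 (D.dg_pos a) (D.dg_dvd a)]
  push_cast
  rfl

theorem Dat.Str.Fs_val (D : Dat p N K) {g : Matrix (Fin N) (Fin N) (ZMod p)} (T : D.Str g) :
    D.Fs g = ∏ a : D.R, ((p : ℂ) ^ dg p (a : K)) ^ (T.m a * (T.m a - 1) / 2) * D.gs a ^ T.m a := by
  rw [Dat.Str.Fs_eq D T]
  refine Finset.prod_congr rfl fun a _ => ?_
  have ha := D.R_ne _ a.2
  have hle := Dat.Str.le D T a
  rw [am_sum (D.phi a) (D.phi_one _) (D.phi_mul _) _ fun k hk hm =>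
      D.van_phi ha hk ((Nat.mul_le_mul_right _ hm).trans hle),
    D.card_Lf (D.dg_pos a) (D.dg_dvd a)]
  push_cast
  congr 1
  rcases Nat.eq_zero_or_pos (T.m a) with h | h
  · rw [h, pow_zero, pow_zero]
  · rw [D.one_phi ha ((Nat.le_mul_of_pos_left _ h).trans hle)]

theorem Dat.Str.Ss_sgn (D : Dat p N K) {g : Matrix (Fin N) (Fin N) (ZMod p)} (T : D.Str g) :
    ∃ j i : ℕ, Ss g = (p : ℂ) ^ j * (-1) ^ i := by
  refine ⟨∑ a : D.R, dg p (a : K) * (T.m a * (T.m a - 1) / 2), ∑ a : D.R, T.m a, ?_⟩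
  rw [Dat.Str.Ss_val D T, Finset.prod_mul_distrib, ← Finset.prod_pow_eq_pow_sum, ← Finset.prod_pow_eq_pow_sum]
  simp only [pow_mul]

theorem Dat.Str.mul_eq (D : Dat p N K) {g : Matrix (Fin N) (Fin N) (ZMod p)} (T : D.Str g) :
    Ss g * ∏ a : D.R, (-D.gs a) ^ T.m a = D.Fs g := by
  rw [Dat.Str.Ss_val D T, Dat.Str.Fs_val D T, ← Finset.prod_mul_distrib]
  refine Finset.prod_congr rfl fun a _ => ?_
  rw [mul_assoc, ← mul_pow]
  simp

theorem Dat.Str.Ss_ne (D : Dat p N K) {g : Matrix (Fin N) (Fin N) (ZMod p)} (T : D.Str g) : Ss g ≠ 0 := by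
  obtain ⟨j, i, h⟩ := Dat.Str.Ss_sgn D T
  rw [h]
  exact mul_ne_zero (pow_ne_zero _ (Nat.cast_ne_zero.2 (Fact.out : p.Prime).ne_zero)) (pow_ne_zero _ (by norm_num))

theorem Dat.Str.norm_eq (D : Dat p N K) {g : Matrix (Fin N) (Fin N) (ZMod p)} (T : D.Str g) (σ : ℂ →+* ℂ) :
    ‖σ (∏ a : D.R, (-D.gs a) ^ T.m a)‖ ^ 2 * (p : ℝ) ^ T.m ⟨1, D.one_mem⟩ = (p : ℝ) ^ N := by
  have h1 : (p : ℝ) ^ N = ∏ a : D.R, (p : ℝ) ^ (T.m a * dg p (a : K)) := by
    rw [Finset.prod_pow_eq_pow_sum, Dat.Str.sum_eq D T]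
  rw [h1, map_prod, norm_prod, ← Finset.prod_pow,
    ← Finset.mul_prod_erase _ _ (Finset.mem_univ (⟨1, D.one_mem⟩ : D.R)),
    ← Finset.mul_prod_erase _ (fun a : D.R => (p : ℝ) ^ (T.m a * dg p (a : K))) (Finset.mem_univ (⟨1, D.one_mem⟩ : D.R))]
  have h2 : ∏ a ∈ Finset.univ.erase (⟨1, D.one_mem⟩ : D.R), ‖σ ((-D.gs a) ^ T.m a)‖ ^ 2 =
      ∏ a ∈ Finset.univ.erase (⟨1, D.one_mem⟩ : D.R), (p : ℝ) ^ (T.m a * dg p (a : K)) := by
    refine Finset.prod_congr rfl fun a ha => ?_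
    have h := D.gs_norm (D.R_ne _ a.2) (fun e => (Finset.mem_erase.1 ha).1 (Subtype.ext e)) σ
    rw [map_pow, map_neg, norm_pow, norm_neg, ← pow_mul, mul_comm (T.m a) 2, pow_mul, h, ← pow_mul, mul_comm]
  rw [h2]
  simp [D.gs_one, dg_one, mul_comm]

theorem kgv_main {H U : Type*} [Group H] [Finite H] [AddCommGroup U] [Module (ZMod p) U] [Finite U]
    (hH : ¬ p ∣ Nat.card H) (ρ : Representation (ZMod p) H U) :
    ∃ n : ℕ, n ≠ 0 ∧ ∃ ψ, ∀ M, IsPModular p M → GR M n ρ ψ := by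
  have hp : p.Prime := Fact.out
  obtain ⟨K, _, _, _, ⟨D⟩⟩ := exists_dat p (Module.finrank (ZMod p) U)
  let b := Module.finBasis (ZMod p) U
  let r : H →* Matrix (Fin (Module.finrank (ZMod p) U)) (Fin (Module.finrank (ZMod p) U)) (ZMod p) :=
    (LinearMap.toMatrixAlgEquiv b).toMulEquiv.toMonoidHom.comp ρ
  have hr : ∀ h, r h = LinearMap.toMatrix b b (ρ h) := fun _ => rfl
  have T : ∀ h, D.Str (r h) := fun h => (D.exists_str hH (by rw [← map_pow, pow_card_eq_one', map_one])).some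
  have hU : Nat.card U = p ^ Module.finrank (ZMod p) U := by
    rw [Module.natCard_eq_pow_finrank (K := ZMod p), Nat.card_zmod]
  have hF : ∀ h, Nat.card (Fx ρ h) = p ^ (T h).m ⟨1, D.one_mem⟩ := by
    intro h
    rw [← Dat.Str.card_fix D (T h)]
    refine Nat.card_congr (b.equivFun.toEquiv.subtypeEquiv fun u => ?_)
    rw [mem_Fx, hr]
    change _ ↔ LinearMap.toMatrix b b (ρ h) *ᵥ b.repr u = b.repr u
    rw [LinearMap.toMatrix_mulVec_repr]
    exact ⟨fun e => by rw [e], fun e => b.repr.injective (DFunLike.coe_injective e)⟩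
  have hint : ∀ h (a : D.R), IsIntegral ℤ ((-D.gs a) ^ (T h).m a) := fun h a => (D.gs_int (D.R_ne _ a.2)).neg.pow _
  have hQ : p ^ D.e - 1 ≠ 0 := by
    have := Nat.one_lt_pow D.e_pos.ne' hp.one_lt
    omega
  refine ⟨p * (p ^ D.e - 1), mul_ne_zero hp.ne_zero hQ, fun h => ∏ a : D.R, (-D.gs a) ^ (T h).m a,
    fun M hM => ⟨?_, fun h => ?_, fun σ h => ?_, ?_, fun h hh => ?_⟩⟩
  · choose j i hj using fun h => Dat.Str.Ss_sgn D (T h)
    have := Fintype.ofFinite H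
    refine mem_of_mul_eq (Ss_mem r) (D.Fs_mem r) (fun h => IsIntegral.prod _ fun a _ => hint h a)
      (fun h => Dat.Str.mul_eq D (T h)) (q := p ^ Finset.univ.sup j)
      ((hp.coprime_iff_not_dvd.2 hH).pow_left _) fun h => ?_
    refine ⟨(p : ℂ) ^ (Finset.univ.sup j - j h) * (-1) ^ i h, ?_, ?_⟩
    · exact ((isIntegral_natCast p).pow _).mul (isIntegral_one.neg.pow _)
    · have hle : j h ≤ Finset.univ.sup j := Finset.le_sup (Finset.mem_univ h)
      rw [hj, mul_mul_mul_comm, ← pow_add, ← mul_pow, Nat.sub_add_cancel hle]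
      simp
  · exact prod_mem fun a _ => pow_mem (neg_mem (D.gs_fix (D.R_ne _ a.2) dvd_rfl)) _
  · rw [hF, hU]
    push_cast
    exact (Dat.Str.norm_eq D (T h) σ).le
  · refine mul_left_cancel₀ (Dat.Str.Ss_ne D (T 1)) ?_
    rw [Dat.Str.mul_eq D (T 1), mul_one, map_one, Dat.Fs, Ss]
    simp only [D.th_one, mul_one]
  · obtain ⟨a, ha, hm⟩ : ∃ a : D.R, a ≠ ⟨1, D.one_mem⟩ ∧ (T h).m a ≠ 0 := by
      by_contra hc
      push Not at hc
      have hs := Dat.Str.sum_eq D (T h)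
      rw [Finset.sum_eq_single ⟨1, D.one_mem⟩ (fun a _ ha => by rw [hc a ha, zero_mul]) (by simp), dg_one, mul_one] at hs
      refine hh ?_
      have : (Fx ρ h).toAddSubgroup = ⊤ := AddSubgroup.eq_top_of_card_eq _ (by
        change Nat.card (Fx ρ h) = _
        rw [hF, hs, hU])
      exact Submodule.toAddSubgroup_injective this
    rw [red_prod _ fun a _ => mem_V_of_isIntegral (hint h a)]
    refine Finset.prod_eq_zero (Finset.mem_univ a) ?_
    rw [red_pow (mem_V_of_isIntegral (D.gs_int (D.R_ne _ a.2)).neg), red_neg,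
      D.gs_red hM (D.R_ne _ a.2) fun e => ha (Subtype.ext e), neg_zero, zero_pow hm]

theorem kgv_ex : CL.KGV.Ex p := fun _ _ _ _ _ _ _ M hM hH ρ =>
  (kgv_main hH ρ).imp fun _ h => ⟨h.1, h.2.imp fun _ h' => h' M hM⟩

end CL.KA
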