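import Cfsg.Agent.KGV.A.Bas

set_option autoImplicit false
set_option linter.unusedSectionVars false

namespace CL.KA
open Polynomial Matrix CL.VCh CL.Blk Cfsg
open scoped Classical

variable {p N : ℕ} [Fact p.Prime] {K : Type} [Field K] [Fintype K] [Algebra (ZMod p) K]

namespace RhoAux

theorem Fadd (x : K) (n m : ℕ) : (x ^ p ^ n) ^ p ^ m = x ^ p ^ (n + m) := by
  rw [← pow_mul, ← pow_add]

theorem Fe (D : Dat p N K) (x : K) (k : ℕ) : x ^ p ^ (D.e * k) = x := by
  induction k with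
  | zero => simp
  | succ k ih =>
    rw [Nat.mul_succ, ← Fadd, ih, ← D.card]; exact FiniteField.pow_card x

theorem Feq (D : Dat p N K) (x : K) {i j : ℕ} (k : ℕ) (h : i = j + D.e * k) : x ^ p ^ i = x ^ p ^ j := by
  rw [h, ← Fadd, Fe]

theorem Finj (D : Dat p N K) (n : ℕ) {x y : K} (h : x ^ p ^ n = y ^ p ^ n) : x = y := by
  obtain ⟨e', he⟩ : ∃ e', D.e = e' + 1 := Nat.exists_eq_succ_of_ne_zero D.e_pos.ne'
  have h1 : ∀ z : K, (z ^ p ^ n) ^ p ^ (e' * n) = z := fun z => by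
    rw [Fadd, Feq D z (j := 0) n (by rw [he]; ring)]; simp
  rw [← h1 x, h, h1]

theorem Runi (D : Dat p N K) (x : K) {i j : ℕ} (hi : x ^ p ^ i ∈ D.R) (hj : x ^ p ^ j ∈ D.R) :
    x ^ p ^ j = x ^ p ^ i := by
  obtain ⟨e', he⟩ : ∃ e', D.e = e' + 1 := Nat.exists_eq_succ_of_ne_zero D.e_pos.ne'
  have h1 : (x ^ p ^ i) ^ p ^ (j + e' * i) = x ^ p ^ j := by
    rw [Fadd]; exact Feq D x i (by rw [he]; ring)
  have := D.R_uq _ hi (j + e' * i) (by rw [h1]; exact hj)
  rw [← h1, this]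

/-- the admissible shifts -/
def PP (D : Dat p N K) (d : ℕ) (a : K) (i : ℕ) : Prop := ∃ j, a ^ p ^ (i + d * j) ∈ D.R

theorem PP_add (D : Dat p N K) (d : ℕ) (a : K) (k i : ℕ) : PP D d a (d * k + i) ↔ PP D d a i := by
  obtain ⟨e', he⟩ : ∃ e', D.e = e' + 1 := Nat.exists_eq_succ_of_ne_zero D.e_pos.ne'
  constructor
  · rintro ⟨j, hj⟩
    exact ⟨k + j, by rwa [show i + d * (k + j) = d * k + i + d * j by ring]⟩
  · rintro ⟨j, hj⟩
    refine ⟨j + e' * k, ?_⟩
    rwa [Feq D a (j := i + d * j) (d * k) (by rw [he]; ring)]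

theorem PP_pow (D : Dat p N K) (d : ℕ) (a : K) (k i : ℕ) : PP D d (a ^ p ^ (d * k)) i ↔ PP D d a i := by
  rw [← PP_add D d a k i]
  simp only [PP, Fadd, add_assoc]

theorem PP_dg (D : Dat p N K) (d : ℕ) (a : K) (k i : ℕ) : PP D d a (dg p a * k + i) ↔ PP D d a i := by
  have h : a ^ p ^ (dg p a * k) = a := (dg_dvd_iff a _).1 (Dvd.intro _ rfl)
  simp only [PP, add_assoc, ← Fadd a (dg p a * k), h]

noncomputable def ix (D : Dat p N K) (d : ℕ) (a : K) : ℕ := sInf {i | PP D d a i}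

theorem ix_pow (D : Dat p N K) (d : ℕ) (a : K) (k : ℕ) : ix D d (a ^ p ^ (d * k)) = ix D d a := by
  simp only [ix, PP_pow]

theorem ix_mem (D : Dat p N K) (d : ℕ) {a : K} (ha : a ≠ 0) : PP D d a (ix D d a) := by
  obtain ⟨i, hi⟩ := D.R_ex a ha
  exact Nat.sInf_mem (s := {i | PP D d a i}) ⟨i, 0, by simpa using hi⟩

noncomputable def rf (D : Dat p N K) (d : ℕ) (a : K) : K := a ^ p ^ (2 * ix D d a)

theorem ix_le (D : Dat p N K) (d : ℕ) {a b : K} (ha : a ≠ 0) (hb : b ≠ 0) (h : rf D d a = rf D d b) :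
    ix D d a ≤ ix D d b := by
  obtain ⟨e', he⟩ : ∃ e', D.e = e' + 1 := Nat.exists_eq_succ_of_ne_zero D.e_pos.ne'
  obtain ⟨ja, hja⟩ := ix_mem D d ha
  obtain ⟨jb, hjb⟩ := ix_mem D d hb
  unfold rf at h
  set ia := ix D d a with hia
  set ib := ix D d b with hib
  have hba : b = a ^ p ^ (2 * ia + e' * (2 * ib)) := by
    rw [← Fadd, h, Fadd, Feq D b (j := 0) (2 * ib) (by rw [he]; ring)]; simp
  have h0 : b ^ p ^ (ib + d * jb) = a ^ p ^ (ia + d * ja) := by
    have h2 := hjb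
    rw [hba, Fadd] at h2
    rw [hba, Fadd]; exact Runi D a hja h2
  have h1 : a ^ p ^ (ia + d * ja + ib) = a ^ p ^ (2 * ia + d * jb) := by
    rw [← Fadd, ← h0, Fadd, ← Fadd a, h, Fadd]; congr 2; ring
  have h2 : a ^ p ^ (ib + d * ja) = a ^ p ^ (ia + d * jb) := by
    apply Finj D ia
    rw [Fadd, Fadd, show ib + d * ja + ia = ia + d * ja + ib by ring, h1]; congr 2; ring
  refine Nat.sInf_le (s := {i | PP D d a i}) ⟨ja + (ja + e' * jb), ?_⟩
  have h3 : a ^ p ^ (ib + d * (ja + (ja + e' * jb))) = a ^ p ^ (ia + d * ja) := by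
    rw [show ib + d * (ja + (ja + e' * jb)) = ib + d * ja + d * (ja + e' * jb) by ring, ← Fadd, h2, Fadd]
    exact Feq D a (d * jb) (by rw [he]; ring)
  rw [h3]; exact hja

theorem rf_zero (D : Dat p N K) (d : ℕ) {a : K} : rf D d a = 0 ↔ a = 0 := by
  unfold rf
  exact pow_eq_zero_iff (pow_ne_zero _ (Fact.out : p.Prime).ne_zero)

theorem rf_inj (D : Dat p N K) (d : ℕ) : Function.Injective (rf D d) := by
  intro a b h
  by_cases ha : a = 0
  · subst ha
    rw [(rf_zero D d).2 rfl] at h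
    exact ((rf_zero D d).1 h.symm).symm
  have hb : b ≠ 0 := by
    rintro rfl
    rw [(rf_zero D d (a := 0)).2 rfl] at h
    exact ha ((rf_zero D d).1 h)
  have h1 : ix D d a = ix D d b := le_antisymm (ix_le D d ha hb h) (ix_le D d hb ha h.symm)
  unfold rf at h
  rw [h1] at h
  exact Finj D _ h

theorem rf_pow (D : Dat p N K) (d : ℕ) (a : K) (k : ℕ) :
    rf D d (a ^ p ^ (d * k)) = (a ^ p ^ (d * k)) ^ p ^ (2 * ix D d a) := by
  rw [rf, ix_pow]

/-- orbit -/
noncomputable def orb (p d : ℕ) (a : K) : Finset K := Finset.univ.filter fun b => ∃ j, b = a ^ p ^ (d * j)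

theorem mem_orb {d : ℕ} {a b : K} : b ∈ orb p d a ↔ ∃ j, b = a ^ p ^ (d * j) := by simp [orb]

theorem orb_map (D : Dat p N K) (d : ℕ) (a : K) :
    (orb p d a).val.map (fun x => x ^ p ^ d) = (orb p d a).val := by
  obtain ⟨e', he⟩ : ∃ e', D.e = e' + 1 := Nat.exists_eq_succ_of_ne_zero D.e_pos.ne'
  refine (Multiset.Nodup.ext ((orb p d a).nodup.map fun x y h => Finj D d h) (orb p d a).nodup).2 fun b => ?_
  simp only [Multiset.mem_map, Finset.mem_val, mem_orb]
  constructor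
  · rintro ⟨_, ⟨j, rfl⟩, rfl⟩
    exact ⟨j + 1, by rw [Fadd]; congr 2⟩
  · rintro ⟨j, rfl⟩
    refine ⟨_, ⟨j + e', rfl⟩, ?_⟩
    rw [Fadd]; exact Feq D a d (by rw [he]; ring)

theorem orb_ind (D : Dat p N K) (d : ℕ) (Q : Multiset K → Prop) (h0 : Q 0)
    (hadd : ∀ a s, a ≠ 0 → Q s → Q ((orb p d a).val + s)) :
    ∀ s : Multiset K, 0 ∉ s → (s.map fun x => x ^ p ^ d) = s → Q s := by
  intro s
  induction s using Multiset.strongInductionOn with
  | ih s ih =>
    intro hs0 hs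
    rcases Multiset.empty_or_exists_mem s with rfl | ⟨a, ha⟩
    · exact h0
    have hj : ∀ j, a ^ p ^ (d * j) ∈ s := by
      intro j
      induction j with
      | zero => simpa using ha
      | succ j ihj =>
        rw [← hs, Nat.mul_succ, ← Fadd]
        exact Multiset.mem_map_of_mem (fun x => x ^ p ^ d) ihj
    have hle : (orb p d a).val ≤ s := (Multiset.le_iff_subset (orb p d a).nodup).2 fun b hb => by
      obtain ⟨j, rfl⟩ := mem_orb.1 hb
      exact hj j
    obtain ⟨t, rfl⟩ := Multiset.le_iff_exists_add.1 hle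
    have hne : (orb p d a).val ≠ 0 := by
      intro h
      have : a ∈ (orb p d a).val := mem_orb.2 ⟨0, by simp⟩
      rw [h] at this; simp at this
    refine hadd a t (fun h => hs0 (h ▸ ha)) (ih t ?_ (fun h => hs0 (Multiset.mem_add.2 (Or.inr h))) ?_)
    · exact lt_add_of_pos_left _ (bot_lt_iff_ne_bot.2 hne)
    · rw [Multiset.map_add, orb_map D] at hs
      exact add_left_cancel hs

theorem per (D : Dat p N K) {d : ℕ} (h0 : 0 < d) (hd : d ∣ D.e) (P : ℕ → Prop) (hP : ∀ k i, P (d * k + i) ↔ P i) :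
    D.cc d * ∑ i ∈ (Finset.range d).filter P, p ^ i = ∑ i ∈ (Finset.range D.e).filter P, p ^ i := by
  obtain ⟨k, hk⟩ := hd
  have h2 : 2 ≤ p ^ d := le_trans (Fact.out : p.Prime).two_le (Nat.le_self_pow h0.ne' p)
  rw [Dat.cc, hk, pow_mul, ← Nat.geomSum_eq h2, Finset.sum_filter, Finset.sum_filter]
  clear hk
  induction k with
  | zero => simp
  | succ k ih =>
    rw [Finset.sum_range_succ, add_mul, ih, Nat.mul_succ, Finset.sum_range_add, Finset.mul_sum]
    congr 1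
    refine Finset.sum_congr rfl fun i _ => ?_
    simp only [hP]
    split_ifs
    · rw [pow_add, pow_mul]
    · simp

theorem io_F (D : Dat p N K) {a : K} (ha : a ≠ 0) (i : ℕ) :
    D.io (a ^ p ^ i) = D.ζ ^ (D.cc (dg p a) * D.ell a * p ^ i) := by
  have h : D.cc (dg p a) ∣ D.lg a := D.cc_dvd (D.dg_pos a) (D.dg_dvd a) ((dg_dvd_iff a _).1 dvd_rfl) ha
  rw [D.io_pow, Dat.io, if_neg ha, Dat.ell, Nat.mul_div_cancel' h, pow_mul]

theorem chi_eq (D : Dat p N K) {l x : K} (hl : l ≠ 0) (hx : x ∈ Lf p K (dg p l)) (h0 : x ≠ 0) :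
    D.chi l x = D.io x ^ D.ell l := by
  obtain ⟨n, hn⟩ : D.cc (dg p l) ∣ D.lg x := D.cc_dvd (D.dg_pos l) (D.dg_dvd l) hx h0
  have h1 := io_F D hl 0
  rw [pow_zero, pow_one, mul_one] at h1
  have hc : 0 < D.cc (dg p l) := by
    refine Nat.pos_of_ne_zero fun h => ?_
    have h3 := D.cc_mul (D.dg_dvd l)
    rw [h, zero_mul] at h3
    have : 2 ≤ p ^ D.e := le_trans (Fact.out : p.Prime).two_le (Nat.le_self_pow D.e_pos.ne' p)
    omega
  rw [Dat.chi, h1, Dat.io, if_neg h0, hn, Nat.mul_div_cancel_left _ hc, ← pow_mul, ← pow_mul]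
  congr 1; ring

theorem orb_prod (D : Dat p N K) {l a : K} (hl : l ≠ 0) (ha : a ≠ 0) :
    ∏ b ∈ orb p (dg p l) a, D.w l b = ∏ b ∈ orb p (dg p l) a, D.io (rf D (dg p l) b) ^ D.ell l := by
  obtain ⟨e', he⟩ : ∃ e', D.e = e' + 1 := Nat.exists_eq_succ_of_ne_zero D.e_pos.ne'
  set d := dg p l with hd
  obtain ⟨j₀, hj₀⟩ := ix_mem D d ha
  have hP0 := ix_mem D d ha
  set i₀ := ix D d a with hi₀
  set a₀ := a ^ p ^ (i₀ + d * j₀) with ha₀
  have ha0 : a₀ ≠ 0 := D.R_ne _ hj₀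
  have hdg : dg p a₀ = dg p a := dg_pow D a _
  have hL : ∏ b ∈ orb p d a, D.w l b = ∏ i ∈ (Finset.range d).filter (PP D d a), D.io (l ^ p ^ i) ^ D.ell a₀ := by
    simp only [Dat.w]
    rw [Finset.prod_comm, Finset.prod_filter]
    refine Finset.prod_congr rfl fun i _ => ?_
    split_ifs with h
    · obtain ⟨j, hj⟩ := h
      have h1 : (a ^ p ^ (d * j)) ^ p ^ i = a₀ := by
        rw [Fadd, add_comm]; exact Runi D a hj₀ hj
      rw [Finset.prod_eq_single (a ^ p ^ (d * j))]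
      · rw [h1, if_pos hj₀]
      · intro b hb hne
        obtain ⟨k, rfl⟩ := mem_orb.1 hb
        refine if_neg fun h2 => hne (Finj D i ?_)
        rw [h1]; rw [Fadd] at h2 ⊢
        exact Runi D a hj₀ h2
      · intro h2; exact absurd (mem_orb.2 ⟨j, rfl⟩) h2
    · refine Finset.prod_eq_one fun b hb => ?_
      obtain ⟨k, rfl⟩ := mem_orb.1 hb
      refine if_neg fun h2 => h ⟨k, ?_⟩
      rwa [Fadd, add_comm] at h2
  have hR : ∏ b ∈ orb p d a, D.io (rf D d b) ^ D.ell l =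
      ∏ t ∈ (Finset.range (dg p a)).filter (PP D d a), D.io (a₀ ^ p ^ t) ^ D.ell l := by
    have hI : (orb p d a).image (rf D d) = ((Finset.range (dg p a)).filter (PP D d a)).image fun t => a₀ ^ p ^ t := by
      ext x
      simp only [Finset.mem_image, mem_orb, Finset.mem_filter, Finset.mem_range]
      constructor
      · rintro ⟨_, ⟨j, rfl⟩, rfl⟩
        set t := d * (j + e' * j₀) + i₀ with ht
        refine ⟨t % dg p a, ⟨Nat.mod_lt _ (D.dg_pos a), ?_⟩, ?_⟩
        · rw [← PP_dg D d a (t / dg p a), Nat.div_add_mod, ht, PP_add]; exact hP0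
        · have h3 : a₀ ^ p ^ (dg p a * (t / dg p a)) = a₀ := (dg_dvd_iff a₀ _).1 (hdg ▸ Dvd.intro _ rfl)
          rw [← h3, Fadd, Nat.div_add_mod, rf_pow, ha₀, Fadd, Fadd]
          exact Feq D a (d * j₀) (by rw [he, ht]; ring)
      · rintro ⟨t, ⟨_, j, hj⟩, rfl⟩
        refine ⟨_, ⟨2 * j₀ + e' * j, rfl⟩, ?_⟩
        have h3 : a ^ p ^ (t + d * j) = a₀ := Runi D a hj₀ hj
        apply Finj D (d * j)
        rw [rf_pow, Fadd, Fadd, Fadd a₀, ha₀, Fadd, add_comm (i₀ + d * j₀), ← Fadd a (t + d * j), h3, ha₀, Fadd]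
        exact Feq D a (d * j) (by rw [he]; ring)
    have h1 := Finset.prod_image (f := fun x => D.io x ^ D.ell l) (s := orb p d a) (g := rf D d)
      (fun x _ y _ h => rf_inj D d h)
    rw [← h1, hI, Finset.prod_image]
    intro x hx y hy h
    have hx' := Finset.mem_range.1 (Finset.mem_filter.1 hx).1
    have hy' := Finset.mem_range.1 (Finset.mem_filter.1 hy).1
    have key : ∀ x y : ℕ, x ≤ y → y < dg p a → a₀ ^ p ^ x = a₀ ^ p ^ y → x = y := by
      intro x y hxy hy h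
      obtain ⟨z, rfl⟩ := Nat.exists_eq_add_of_le hxy
      have h4 : a₀ ^ p ^ z = a₀ := Finj D x (by rw [Fadd, add_comm z x, h])
      have h5 := (dg_dvd_iff a₀ z).2 h4
      rw [hdg] at h5
      have := Nat.eq_zero_of_dvd_of_lt h5 (by omega)
      omega
    rcases le_total x y with h6 | h6
    · exact key x y h6 hy' h
    · exact (key y x h6 hx' h.symm).symm
  rw [hL, hR]
  simp only [io_F D hl, io_F D ha0, ← pow_mul]
  rw [Finset.prod_pow_eq_pow_sum, Finset.prod_pow_eq_pow_sum, ← Finset.sum_mul, ← Finset.sum_mul,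
    ← Finset.mul_sum, ← Finset.mul_sum, hdg]
  congr 1
  have p1 := per D (D.dg_pos l) (D.dg_dvd l) (PP D d a) (PP_add D d a)
  have p2 := per D (D.dg_pos a) (D.dg_dvd a) (PP D d a) (PP_dg D d a)
  rw [← p2] at p1
  calc _ = D.ell l * D.ell a₀ * (D.cc d * ∑ i ∈ (Finset.range d).filter (PP D d a), p ^ i) := by ring
    _ = _ := by rw [p1]; ring

theorem trc_F {d : ℕ} {x : K} (hx : x ^ p ^ d = x) (k : ℕ) : trc p d (x ^ p ^ k) = trc p d x := by
  induction k with
  | zero => simp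
  | succ k ih =>
    rw [← ih]
    have h1 := Finset.sum_range_succ (fun i => (x ^ p ^ k) ^ p ^ i) d
    have h2 := Finset.sum_range_succ' (fun i => (x ^ p ^ k) ^ p ^ i) d
    have h3 : (x ^ p ^ k) ^ p ^ d = (x ^ p ^ k) ^ p ^ 0 := by
      rw [Fadd, add_comm, ← Fadd, hx]; simp
    rw [h1, h3] at h2
    have h4 := add_right_cancel h2
    unfold trc
    rw [h4]
    refine Finset.sum_congr rfl fun i _ => ?_
    rw [Fadd, Fadd]; congr 2; ring

theorem orb_trc (D : Dat p N K) (d : ℕ) (a : K) :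
    trc p d (∑ b ∈ orb p d a, rf D d b) = trc p d (∑ b ∈ orb p d a, b) := by
  have := (Algebra.charP_iff (ZMod p) K p).1 inferInstance
  have h1 : ∑ b ∈ orb p d a, rf D d b = (∑ b ∈ orb p d a, b) ^ p ^ (2 * ix D d a) := by
    rw [sum_pow_char_pow]
    refine Finset.sum_congr rfl fun b hb => ?_
    obtain ⟨j, rfl⟩ := mem_orb.1 hb
    exact rf_pow D d a j
  rw [h1]
  apply trc_F
  rw [sum_pow_char_pow]
  have h2 := congrArg Multiset.sum (orb_map D d a)
  rw [Finset.sum_val] at h2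
  exact h2

theorem io_prod (D : Dat p N K) (s : Multiset K) : D.io s.prod = (s.map D.io).prod := by
  induction s using Multiset.induction_on with
  | empty => simpa using D.io_one
  | cons a s ih => simp [D.io_mul, ih]

end RhoAux
open RhoAux

theorem Dat.exists_rho (D : Dat p N K) {l : K} (hl : l ≠ 0) : ∃ ρ : K ≃ K, ρ 0 = 0 ∧ (∀ a, ρ (a ^ p ^ dg p l) = ρ a ^ p ^ dg p l) ∧
    ∀ s : Multiset K, 0 ∉ s → (s.map fun x => x ^ p ^ dg p l) = s →
      (s.map (D.w l)).prod = D.chi l (s.map ρ).prod ∧ trc p (dg p l) (s.map ρ).sum = trc p (dg p l) s.sum := by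
  have hc : ∀ a, rf D (dg p l) (a ^ p ^ dg p l) = rf D (dg p l) a ^ p ^ dg p l := fun a => by
    have := rf_pow D (dg p l) a 1
    rw [mul_one] at this
    rw [this, rf, Fadd, Fadd, add_comm]
  refine ⟨Equiv.ofBijective _ (Finite.injective_iff_bijective.1 (rf_inj D (dg p l))), (rf_zero D _).2 rfl, hc, ?_⟩
  intro s hs0 hs
  simp only [Equiv.coe_ofBijective]
  constructor
  · have hx : (s.map (rf D (dg p l))).prod ∈ Lf p K (dg p l) := by
      rw [mem_Lf, ← Multiset.prod_map_pow]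
      simp only [← hc]
      conv_rhs => rw [← hs, Multiset.map_map]
      rfl
    have h0 : (s.map (rf D (dg p l))).prod ≠ 0 := by
      refine Multiset.prod_ne_zero fun h => ?_
      obtain ⟨a, ha, h1⟩ := Multiset.mem_map.1 h
      exact hs0 ((rf_zero D _).1 h1 ▸ ha)
    rw [chi_eq D hl hx h0, io_prod, Multiset.map_map, ← Multiset.prod_map_pow]
    refine orb_ind D (dg p l) (fun s => (s.map (D.w l)).prod =
      (s.map fun a => (D.io ∘ rf D (dg p l)) a ^ D.ell l).prod) (by simp) ?_ s hs0 hs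
    intro a t ha ht
    simp only [Multiset.map_add, Multiset.prod_add, ht]
    congr 1
    exact orb_prod D hl ha
  · refine orb_ind D (dg p l) (fun s => trc p (dg p l) (s.map (rf D (dg p l))).sum = trc p (dg p l) s.sum)
      (by simp) ?_ s hs0 hs
    intro a t ha ht
    simp only [Multiset.map_add, Multiset.sum_add, trc_add, ht]
    congr 1
    have := orb_trc D (dg p l) a
    rw [Finset.sum_val]
    exact this

end CL.KA
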