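import Cfsg.Agent.KGV.A.Rho

set_option autoImplicit false
set_option linter.unusedSectionVars false

namespace CL.KA
open Polynomial Matrix CL.VCh CL.Blk Cfsg
open scoped Classical

variable {p N : ℕ} [Fact p.Prime] {K : Type} [Field K] [Fintype K] [Algebra (ZMod p) K]

namespace TauH

theorem coeff_mon {F : Type} [Field F] {k : ℕ} (c : Fin k → F) (i : Fin k) : (mon c).coeff i = c i := by
  unfold mon
  rw [coeff_add, coeff_X_pow, if_neg i.2.ne, zero_add, finsetSum_coeff]
  simp only [coeff_C_mul_X_pow]
  rw [Finset.sum_eq_single i]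
  · simp
  · intro j _ hj
    rw [if_neg]
    intro h; exact hj (Fin.ext h).symm
  · simp

theorem deg_lt {F : Type} [Field F] {k : ℕ} (c : Fin k → F) :
    (∑ i, C (c i) * X ^ (i : ℕ)).degree < (k : WithBot ℕ) := degree_sum_fin_lt c

theorem monic_mon {F : Type} [Field F] {k : ℕ} (c : Fin k → F) : (mon c).Monic :=
  monic_X_pow_add (deg_lt c)

theorem natDegree_mon {F : Type} [Field F] {k : ℕ} (c : Fin k → F) : (mon c).natDegree = k := by
  unfold mon
  rw [natDegree_add_eq_left_of_degree_lt, natDegree_X_pow]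
  rw [degree_X_pow]; exact deg_lt c

/-- the monic polynomial with the given roots -/
noncomputable def pl (t : Multiset K) : K[X] := (t.map fun x => X - C x).prod

theorem pl_roots (t : Multiset K) : (pl t).roots = t := roots_multiset_prod_X_sub_C t

theorem pl_monic (t : Multiset K) : (pl t).Monic :=
  monic_multiset_prod_of_monic _ _ fun a _ => monic_X_sub_C a

theorem pl_deg (t : Multiset K) : (pl t).natDegree = t.card := natDegree_multiset_prod_X_sub_C_eq_card t

theorem pl_next (t : Multiset K) : (pl t).nextCoeff = -t.sum := multiset_prod_X_sub_C_nextCoeff t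

theorem pl_zero (t : Multiset K) : (-1) ^ t.card * (pl t).coeff 0 = t.prod := by
  unfold pl
  rw [coeff_zero_multiset_prod, Multiset.map_map]
  have : ((fun f : K[X] => f.coeff 0) ∘ fun x : K => X - C x) = fun x => -x := by
    ext x; simp
  rw [this, Multiset.prod_map_neg, ← mul_assoc, ← mul_pow]; simp

theorem pl_map (f : K →+* K) (t : Multiset K) : (pl t).map f = pl (t.map f) := by
  unfold pl
  rw [Polynomial.map_multiset_prod, Multiset.map_map, Multiset.map_map]
  congr 2; ext1 x; simp

theorem map_mon {d k : ℕ} (G : K[X]) (hG : G.Monic) (hk : G.natDegree = k)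
    (h : ∀ i, G.coeff i ∈ Lf p K d) :
    (mon fun i : Fin k => (⟨G.coeff i, h i⟩ : Lf p K d)).map (Lf p K d).subtype = G := by
  conv_rhs => rw [hG.as_sum, hk, Finset.sum_range]
  unfold mon
  simp [Polynomial.map_sum]

end TauH

open TauH in
/-- monic `h` of degree `k` over `L` splits in `K` (`spl`); `h ↦ ∏ (X - ρ a)` over the roots is a permutation `τ` of these polynomials (coefficients fixed by `x ^ p ^ d`, inverse from `ρ.symm`);
`phi h = (right side)(τ h)`: `-nextCoeff` = sum of the roots, `(-1)^k coeff 0` = their product. -/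
theorem Dat.sum_phi (D : Dat p N K) {l : K} (hl : l ≠ 0) {k : ℕ} (hk : k * dg p l ≤ N) :
    ∑ c : Fin k → Lf p K (dg p l), D.phi l (mon c) =
      ∑ c : Fin k → Lf p K (dg p l), phi0 (dg p l) (mon c) * D.chi l ((-1) ^ k * (((mon c).coeff 0 : Lf p K (dg p l)) : K)) := by
  obtain ⟨ρ, hρ0, hρ1, hρ2⟩ := D.exists_rho hl
  have hch := (Algebra.charP_iff (ZMod p) K p).1 inferInstance
  have hex : ExpChar K p := ExpChar.prime Fact.out
  let φ : K →+* K := iterateFrobenius K p (dg p l)
  have hφ : ∀ x, φ x = x ^ p ^ dg p l := fun x => rfl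
  let ι := (Lf p K (dg p l)).subtype
  have hι : Function.Injective ι := Subtype.val_injective
  let s : (Fin k → Lf p K (dg p l)) → Multiset K := fun c => ((mon c).map ι).roots
  have hmon : ∀ c : Fin k → Lf p K (dg p l), ((mon c).map ι).Monic := fun c => (monic_mon c).map ι
  have hdeg : ∀ c : Fin k → Lf p K (dg p l), ((mon c).map ι).natDegree = k := fun c => by
    rw [natDegree_map_eq_of_injective hι, natDegree_mon]
  have hfix : ∀ (c : Fin k → Lf p K (dg p l)) i, ((mon c).map ι).coeff i ^ p ^ dg p l = ((mon c).map ι).coeff i :=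
    fun c i => by rw [coeff_map]; exact ((mon c).coeff i).2
  have hcard : ∀ c, (s c).card = ((mon c).map ι).natDegree := fun c =>
    D.spl (dg p l) _ (D.dg_pos l) (hmon c) (hfix c) (by rw [hdeg]; exact hk)
  have hpl : ∀ c, pl (s c) = (mon c).map ι := fun c =>
    prod_multiset_X_sub_C_of_monic_of_roots_card_eq (hmon c) (hcard c)
  have hsφ : ∀ c, (s c).map (fun x => x ^ p ^ dg p l) = s c := fun c => by
    have h1 : (pl (s c)).map φ = pl (s c) := by
      rw [hpl]; ext i; rw [coeff_map, hφ, hfix]
    rw [pl_map] at h1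
    have h2 := congrArg roots h1
    rwa [pl_roots, pl_roots] at h2
  have hGfix : ∀ c i, (pl ((s c).map ρ)).coeff i ∈ Lf p K (dg p l) := fun c i => by
    have h1 : ((s c).map ρ).map φ = (s c).map ρ := by
      conv_rhs => rw [← hsφ c]
      rw [Multiset.map_map, Multiset.map_map]
      refine Multiset.map_congr rfl fun x _ => ?_
      simp only [Function.comp]
      rw [hφ, hρ1]
    have h2 : (pl ((s c).map ρ)).map φ = pl ((s c).map ρ) := by rw [pl_map, h1]
    have h3 := congrArg (fun f => coeff f i) h2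
    simp only [coeff_map] at h3
    exact h3
  have hGdeg : ∀ c, (pl ((s c).map ρ)).natDegree = k := fun c => by
    rw [pl_deg, Multiset.card_map, hcard, hdeg]
  let T : (Fin k → Lf p K (dg p l)) → (Fin k → Lf p K (dg p l)) := fun c i =>
    ⟨(pl ((s c).map ρ)).coeff i, hGfix c i⟩
  have hT : ∀ c, (mon (T c)).map ι = pl ((s c).map ρ) := fun c =>
    map_mon _ (pl_monic _) (hGdeg c) (hGfix c)
  have hinj : Function.Injective T := fun c c' h => by
    have h1 : pl ((s c).map ρ) = pl ((s c').map ρ) := by rw [← hT, ← hT, h]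
    have h2 := congrArg roots h1
    rw [pl_roots, pl_roots] at h2
    have h3 : s c = s c' := Multiset.map_injective ρ.injective h2
    have h4 : (mon c).map ι = (mon c').map ι := by rw [← hpl, ← hpl, h3]
    have h5 := map_injective ι hι h4
    funext i
    rw [← coeff_mon c i, h5, coeff_mon]
  refine Fintype.sum_bijective T (Finite.injective_iff_bijective.1 hinj) _ _ fun c => ?_
  have hk1 : (s c).card = k := by rw [hcard, hdeg]
  have e1 : (-1) ^ k * (((mon c).coeff 0 : Lf p K (dg p l)) : K) = (s c).prod := by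
    have := pl_zero (s c)
    rw [hk1, hpl, coeff_map] at this
    exact this
  have e2 : (-1) ^ k * (((mon (T c)).coeff 0 : Lf p K (dg p l)) : K) = ((s c).map ρ).prod := by
    have := pl_zero ((s c).map ρ)
    rw [Multiset.card_map, hk1, ← hT, coeff_map] at this
    exact this
  have e3 : -(((mon c).nextCoeff : Lf p K (dg p l)) : K) = (s c).sum := by
    have := pl_next (s c)
    rw [hpl, nextCoeff_map hι] at this
    rw [neg_eq_iff_eq_neg]; exact this
  have e4 : -(((mon (T c)).nextCoeff : Lf p K (dg p l)) : K) = ((s c).map ρ).sum := by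
    have := pl_next ((s c).map ρ)
    rw [← hT, nextCoeff_map hι] at this
    rw [neg_eq_iff_eq_neg]; exact this
  have hm1 : ((-1 : K) ^ k) ≠ 0 := pow_ne_zero _ (neg_ne_zero.2 one_ne_zero)
  unfold Dat.phi phi0
  by_cases h0 : (mon c).coeff 0 = 0
  · have h1 : (0 : K) ∈ s c := by
      rw [← Multiset.prod_eq_zero_iff, ← e1, h0]; simp
    have h2 : (mon (T c)).coeff 0 = 0 := by
      have : ((s c).map ρ).prod = 0 :=
        Multiset.prod_eq_zero_iff.2 (Multiset.mem_map.2 ⟨0, h1, hρ0⟩)
      rw [← e2] at this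
      exact Subtype.ext ((mul_eq_zero.1 this).resolve_left hm1)
    rw [if_pos h0, if_pos h2, zero_mul, zero_mul]
  · have h1 : (0 : K) ∉ s c := fun h => by
      rw [← Multiset.prod_eq_zero_iff, ← e1] at h
      exact h0 (Subtype.ext ((mul_eq_zero.1 h).resolve_left hm1))
    have h2 : (mon (T c)).coeff 0 ≠ 0 := fun h => by
      have : ((s c).map ρ).prod = 0 := by rw [← e2, h]; simp
      obtain ⟨a, ha, ha0⟩ := Multiset.mem_map.1 (Multiset.prod_eq_zero_iff.1 this)
      rw [← hρ0] at ha0
      exact h1 (ρ.injective ha0 ▸ ha)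
    obtain ⟨f1, f2⟩ := hρ2 (s c) h1 (hsφ c)
    rw [if_neg h0, if_neg h2, e2, e3, e4, f2, ← f1]

end CL.KA
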