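import Cfsg.Agent.KGV.A.Top

/-!
The good class function, for all primes above `p` at once, with the conjugate clause.
-/

set_option autoImplicit false
open Cfsg

namespace CL.KGA

open Subgroup CL.VCh CL.RVec CL.Blk LinearMap

universe u

variable {p : ℕ} [hp : Fact p.Prime]

theorem exAll (hK : Kondo.{u} p) (hT : Th.{u} p) (H U : Type u) [Group H] [Finite H] [AddCommGroup U]
    [Module (ZMod p) U] [Finite U] (hH : ¬ p ∣ Nat.card H) (ρ : Representation (ZMod p) H U) :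
    ∃ n : ℕ, n ≠ 0 ∧ ∃ ψ, ∀ M : Ideal AlgInt, IsPModular p M → GR M n ρ ψ ∧
      ∀ h, Fx ρ h ≠ ⊤ → red M ((starRingEnd ℂ) (ψ h)) = 0 := by
  classical
  have : Finite (Module.End (ZMod p) U) := Finite.of_injective _ DFunLike.coe_injective
  let e := ZMod.stdAddChar (N := p)
  have he : e.IsPrimitive := ZMod.isPrimitive_stdAddChar p
  have hne : ∀ ψ : AddChar (ZMod p) ℂ, ψ.IsPrimitive → ψ ≠ 1 := fun ψ h h1 =>
    h one_ne_zero (by rw [AddChar.mulShift_one, h1])
  obtain ⟨N, hN, Θ, h1, h2, h3, h4⟩ := hT H U hH ρ e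
  have hg : ∀ h, ρ.asGroupHom h ^ Nat.card H = 1 := fun h => by rw [← map_pow, pow_card_eq_one', map_one]
  choose j A a1 a2 a3 a4 a5 using fun h => hK U (ρ.asGroupHom h) _ hH (hg h) (Θ h) N hN (h1 h) (h2 h) e
    (hne e he)
  have p0 : ∀ k : ℕ, (p : ℂ) ^ k ≠ 0 := fun k => pow_ne_zero _ (Nat.cast_ne_zero.2 hp.out.ne_zero)
  have S0 : ∀ h, (∑ᶠ x : centralizer ({ρ.asGroupHom h} : Set (Module.End (ZMod p) U)ˣ),
      e (trace (ZMod p) U x.1.1)) ≠ 0 := fun h => by
    rcases a1 h with h | h <;> rw [h]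
    exacts [p0 _, neg_ne_zero.2 (p0 _)]
  have N0 : N ≠ 0 := fun h => hN (h ▸ dvd_zero p)
  obtain ⟨J, hJ⟩ := (Set.finite_range j).bddAbove
  have hi : IsIntegral ℤ (e 1) := IsIntegral.of_pow hp.out.pos (add_pow_p e _ ▸ isIntegral_one)
  have key : ∀ h, Fx ρ h ≠ ⊤ → ∃ B, IsIntegral ℤ B ∧ A h = (e 1 - 1) * B := fun h hh =>
    a5 h (h3 h fun h0 => hh (top_le_iff.1 fun v _ => by rw [mem_Fx, h0]; rfl))
  have kz : ∀ M : Ideal AlgInt, IsPModular p M → ∀ z B : ℂ, z ^ p = 1 → IsIntegral ℤ B →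
      red M ((z - 1) * B) = 0 := fun M hM z B hz b1 => by
    have hi : IsIntegral ℤ z := IsIntegral.of_pow hp.out.pos (hz ▸ isIntegral_one)
    rw [red_mul (mem_V_of_isIntegral (hi.sub isIntegral_one)) (mem_V_of_isIntegral b1),
      red_sub (mem_V_of_isIntegral hi) (one_mem _),
      red_eq_one_of_pow_p_pow hM (k := 1) (by rw [pow_one, hz]), red_one, sub_self, zero_mul]
  refine ⟨p * N, mul_ne_zero hp.out.ne_zero N0, A, fun M hM => ⟨⟨mem_of_mul_eq (S_mem ρ e) h4 a3 (fun h => (a2 h).symm)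
    (q := p ^ J) ((hp.out.coprime_iff_not_dvd.2 hH).pow_left _) fun h => ?_, fun h => ?_,
    fun σ h => ?_, ?_, fun h hh => ?_⟩, fun h hh => ?_⟩⟩
  · obtain ⟨k, hk⟩ := Nat.exists_eq_add_of_le (hJ ⟨h, rfl⟩)
    have hi : IsIntegral ℤ ((p : ℂ) ^ k) := (CL.Char.isIntegral_natCast' p).pow k
    rcases a1 h with h | h <;> rw [h, hk]
    · exact ⟨_, hi, by push_cast; ring⟩
    · exact ⟨_, hi.neg, by push_cast; ring⟩
  · have := Fintype.ofFinite (centralizer ({ρ.asGroupHom h} : Set (Module.End (ZMod p) U)ˣ))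
    have he' : ∀ a, e a ∈ Fix (p * N) := fun a => root_mem_fix (by rw [pow_mul, add_pow_p, one_pow])
    rw [eq_div_of_mul_eq (S0 h) ((mul_comm _ _).trans (a2 h).symm), finsum_eq_sum_of_fintype,
      finsum_eq_sum_of_fintype]
    exact div_mem (sum_mem fun x _ => mul_mem (he' _)
      (root_mem_fix (by rw [pow_mul', h1, one_pow]))) (sum_mem fun x _ => he' _)
  · have := Fintype.ofFinite (centralizer ({ρ.asGroupHom h} : Set (Module.End (ZMod p) U)ˣ))
    obtain ⟨_, B, -, b2, -, b4, -⟩ := hK U (ρ.asGroupHom h) _ hH (hg h) (σ.toMonoidHom.comp (Θ h)) N hN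
      (fun x => by
        change σ (Θ h x) ^ N = 1
        rw [← map_pow, h1, map_one]) (fun x hx => by
        change σ (Θ h x) = 1
        rw [h2 h x hx, map_one]) (σ.toMonoidHom.compAddChar e)
      (hne _ (he.compMulHom_of_isPrimitive (f := σ.toMonoidHom) σ.injective))
    have b1 := congrArg σ (a2 h)
    have s0 := (map_ne_zero σ).2 (S0 h)
    simp only [finsum_eq_sum_of_fintype, map_mul, map_sum] at b1 b2 s0
    rw [mul_left_cancel₀ s0 (b1.symm.trans b2)]
    exact b4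
  · have := a2 1
    simp only [fun x => h2 1 x fun v => by simp, mul_one] at this
    exact (mul_left_cancel₀ (S0 1) ((mul_one _).trans this)).symm
  · obtain ⟨B, b1, b2⟩ := key h hh
    rw [b2, kz M hM _ _ (add_pow_p e _) b1]
  · obtain ⟨B, b1, b2⟩ := key h hh
    rw [b2, map_mul, map_sub, (starRingEnd ℂ).map_one, kz M hM _ _ (by rw [← map_pow, add_pow_p, map_one])
      (b1.map_of_comp_eq (RingHom.id ℤ) (starRingEnd ℂ) (RingHom.ext_int _ _))]

end CL.KGA
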